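import Cfsg.Agent.Lib.Gr.Coc

/-!
The Griess algebra over the field with 257 elements, as a symmetric trilinear form, and its automorphism group.
-/

set_option autoImplicit false

namespace CA.Gr
open Cfsg CA.Gol CA.Co Matrix
open scoped Kronecker

abbrev II : Type := GolayPt × CC
abbrev MG : Type := Matrix GolayPt GolayPt FF
abbrev MC : Type := Matrix CC CC FF
abbrev MI : Type := Matrix II II FF
/-- the ambient space -/
abbrev AA : Type := MG × MI × (II → FF)

theorem ff_ne (n : ℕ) [n.AtLeastTwo] (h : ¬ 257 ∣ n := by norm_num) : (OfNat.ofNat n : FF) ≠ 0 :=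
  fun e => h ((ZMod.natCast_eq_zero_iff n 257).1 e)
theorem cast_inj {a b : ℤ} (h : (a : FF) = b) (h1 : a - b < 257) (h2 : -257 < a - b) : a = b := by
  have := (ZMod.intCast_eq_intCast_iff_dvd_sub a b 257).1 h
  omega

/-- minimal vectors -/
def Mn (r : LL) : Prop := sqNorm (r : ZV) = 32
theorem Mn.neg {r : LL} (h : Mn r) : Mn (-r) := (sqNorm_neg _).trans h
theorem Mn.smul {r : LL} (h : Mn r) (g : Co0) : Mn (g • r) := (co_norm g r).trans h
theorem Mn.qq {r : LL} (h : Mn r) : qq r = 0 := (qq_of (k := 2) h).trans rfl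
theorem Mn.cg_iff {r s : LL} (hr : Mn r) (hs : Mn s) : Cg (r + s : LL) 0 ↔ s = r ∨ s = -r := by
  rw [AddSubgroup.coe_add, ← cg_iff_add s.2]
  refine ⟨fun h => (h.symm.eq_or r.2 (by rw [hs]; norm_num) (by rw [hr]; norm_num)).imp Subtype.ext Subtype.ext, ?_⟩
  rintro (rfl | rfl)
  exacts [Cg.refl _, (cg_neg r.2).symm]
theorem Mn.ne_neg {r : LL} (hr : Mn r) : r ≠ -r := fun e => by
  have : r = 0 := Subtype.ext (funext fun p => by
    have := congrFun (congrArg Subtype.val e) p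
    simp only [AddSubgroup.coe_neg, Pi.neg_apply] at this
    simp only [AddSubgroup.coe_zero, Pi.zero_apply]; omega)
  rw [this] at hr; revert hr; simp [Mn, sqNorm]
theorem finite_mn : {r : LL | Mn r}.Finite := by
  refine Set.Finite.of_finite_image (f := fun r : LL => (r : ZV)) ?_ Subtype.val_injective.injOn
  refine (Set.Finite.pi' fun _ => Set.finite_Icc (-8 : ℤ) 8).subset ?_
  rintro _ ⟨r, hr, rfl⟩ p
  have := card_mul_le_sqNorm r {p} ((r : ZV) p ^ 2) (by simp)
  rw [hr, Finset.card_singleton, Nat.cast_one, one_mul] at this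
  dsimp only
  constructor <;> nlinarith

/-- reduction of a lattice vector -/
def cz (v : LL) : GolayPt → FF := fun p => ((v : ZV) p : ℤ)
theorem cz_dot (v w : LL) : cz v ⬝ᵥ cz w = (dotInt (v : ZV) w : ℤ) := by simp [cz, dotProduct, dotInt]
theorem cz_neg (v : LL) : cz (-v) = -cz v := funext fun p => by simp [cz]
def Rk (v : LL) : MG := vecMulVec (cz v) (cz v)
def MM (v : LL) : MG := (4 : FF) • 1 - Rk v
/-- the basis vectors of the part of dimension 98280, as operators on the part of dimension 98304 -/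
noncomputable def NN (r : LL) : MI := MM r ⊗ₖ xm r
/-- the value of a quadratic form -/
def qf (A : MG) (r : LL) : FF := cz r ⬝ᵥ A *ᵥ cz r
theorem Rk_neg (v : LL) : Rk (-v) = Rk v := by simp [Rk, cz_neg]
theorem NN_neg (v : LL) : NN (-v) = NN v := by rw [NN, NN, MM, MM, Rk_neg, xm_neg]
theorem Rk_symm (v : LL) : (Rk v)ᵀ = Rk v := transpose_vecMulVec _ _
theorem MM_symm (v : LL) : (MM v)ᵀ = MM v := by simp [MM, Rk_symm]
theorem NN_symm {r : LL} (h : Mn r) : (NN r)ᵀ = NN r := by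
  rw [NN, ← kroneckerMap_transpose, MM_symm, xm_transpose, h.qq, sn_zero, one_smul]
theorem trace_mul_Rk (A : MG) (v : LL) : (A * Rk v).trace = qf A v := by
  rw [Rk, mul_vecMulVec, trace_vecMulVec, dotProduct_comm, qf]
theorem MM_sq {r : LL} (h : Mn r) : MM r * MM r = (16 : FF) • 1 + (24 : FF) • Rk r := by
  have : Rk r * Rk r = (32 : FF) • Rk r := by
    rw [Rk, vecMulVec_mul_vecMulVec, cz_dot, ← sqNorm_eq_dot, h, vecMulVec_smul]; rfl
  simp only [MM, sub_mul, mul_sub, smul_mul_assoc, mul_smul_comm, one_mul, mul_one, this]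
  module
theorem trace_MMM (r s t : LL) : (MM r * MM s * MM t).trace = (1536 - 16 * (sqNorm (r : ZV) + sqNorm (s : ZV) +
    sqNorm (t : ZV)) + 4 * (dotInt (r : ZV) s ^ 2 + dotInt (s : ZV) t ^ 2 + dotInt (r : ZV) t ^ 2) -
    dotInt (r : ZV) s * dotInt (s : ZV) t * dotInt (r : ZV) t : ℤ) := by
  simp only [MM, Rk, sub_mul, mul_sub, smul_mul_assoc, mul_smul_comm, one_mul, mul_one, vecMulVec_mul_vecMulVec,
    trace_sub, trace_smul, trace_one, card_golayPt, trace_vecMulVec, dotProduct_smul, cz_dot, smul_eq_mul,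
    sqNorm_eq_dot, vecMulVec_smul]
  push_cast
  ring

noncomputable def Lo (A : MG) : MI := ((32 : FF) • A + (4 * A.trace) • (1 : MG)) ⊗ₖ (1 : MC)
noncomputable def Hat (A : MG) : MI := ((72 : FF) • A - A.trace • (1 : MG)) ⊗ₖ (1 : MC)
theorem Lo_add (A B : MG) : Lo (A + B) = Lo A + Lo B := by
  rw [Lo, Lo, Lo, ← add_kronecker, trace_add]; congr 1; module
theorem Lo_smul (c : FF) (A : MG) : Lo (c • A) = c • Lo A := by
  rw [Lo, Lo, ← smul_kronecker, trace_smul, smul_eq_mul]; congr 1; module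
theorem Hat_add (A B : MG) : Hat (A + B) = Hat A + Hat B := by
  rw [Hat, Hat, Hat, ← add_kronecker, trace_add]; congr 1; module
theorem Hat_smul (c : FF) (A : MG) : Hat (c • A) = c • Hat A := by
  rw [Hat, Hat, ← smul_kronecker, trace_smul, smul_eq_mul]; congr 1; module
@[simp] theorem Lo_zero : Lo 0 = 0 := by simp [Lo]
@[simp] theorem Hat_zero : Hat 0 = 0 := by simp [Hat]
theorem Lo_symm {A : MG} (h : Aᵀ = A) : (Lo A)ᵀ = Lo A := by simp [Lo, ← kroneckerMap_transpose, h]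
theorem Hat_symm {A : MG} (h : Aᵀ = A) : (Hat A)ᵀ = Hat A := by simp [Hat, ← kroneckerMap_transpose, h]

def gA (A B C : MG) : FF := 128 * ((A * B * C).trace + (A * C * B).trace)
noncomputable def gH (A : MG) (f g : MI) : FF := (216 * nC)⁻¹ * (Hat A * f * g).trace
noncomputable def gF (f g h : MI) : FF := (112 * nC)⁻¹ * (f * g * h).trace
noncomputable def gU (A : MG) (f : MI) (u v : II → FF) : FF := u ⬝ᵥ (Lo A + f) *ᵥ v
/-- the trilinear form -/
noncomputable def ga (a b c : AA) : FF := gA a.1 b.1 c.1 +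
  (gH a.1 b.2.1 c.2.1 + gH b.1 c.2.1 a.2.1 + gH c.1 a.2.1 b.2.1) + gF a.2.1 b.2.1 c.2.1 +
  (gU a.1 a.2.1 b.2.2 c.2.2 + gU b.1 b.2.1 c.2.2 a.2.2 + gU c.1 c.2.1 a.2.2 b.2.2)

theorem gA_cyc (A B C : MG) : gA A B C = gA B C A := by
  rw [gA, gA, trace_mul_cycle B C A, trace_mul_cycle A C B]
theorem gF_cyc (f g h : MI) : gF f g h = gF g h f := by rw [gF, gF, trace_mul_cycle g h f]
theorem ga_cyc (a b c : AA) : ga a b c = ga b c a := by
  rw [ga, ga, gA_cyc, gF_cyc]; ring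
theorem ga_add (a a' b c : AA) : ga (a + a') b c = ga a b c + ga a' b c := by
  simp only [ga, gA, gH, gF, gU, Prod.fst_add, Prod.snd_add, Lo_add, Hat_add, add_mul, mul_add, trace_add,
    add_mulVec, mulVec_add, dotProduct_add, add_dotProduct]
  ring
theorem ga_smul (k : FF) (a b c : AA) : ga (k • a) b c = k * ga a b c := by
  simp only [ga, gA, gH, gF, gU, Prod.smul_fst, Prod.smul_snd, Lo_smul, Hat_smul, smul_mul_assoc, mul_smul_comm,
    trace_smul, ← smul_add, smul_mulVec, mulVec_smul, dotProduct_smul, smul_dotProduct, smul_eq_mul]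
  ring
/-- the form as a linear map in the first argument -/
noncomputable def gaL (b c : AA) : AA →ₗ[FF] FF := ⟨⟨fun a => ga a b c, fun a a' => ga_add a a' b c⟩, fun k a => ga_smul k a b c⟩
theorem gaL_apply (a b c : AA) : gaL b c a = ga a b c := rfl
theorem ga_add₂ (a b b' c : AA) : ga a (b + b') c = ga a b c + ga a b' c := by simp only [ga_cyc a, ga_add]
theorem ga_add₃ (a b c c' : AA) : ga a b (c + c') = ga a b c + ga a b c' := by simp only [← ga_cyc _ a, ga_add]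
theorem ga_smul₂ (k : FF) (a b c : AA) : ga a (k • b) c = k * ga a b c := by simp only [ga_cyc a, ga_smul]
theorem ga_smul₃ (k : FF) (a b c : AA) : ga a b (k • c) = k * ga a b c := by simp only [← ga_cyc _ a, ga_smul]
theorem ga_sub (a a' b c : AA) : ga (a - a') b c = ga a b c - ga a' b c := map_sub (gaL b c) a a'
theorem ga_sub₂ (a b b' c : AA) : ga a (b - b') c = ga a b c - ga a b' c := by simp only [ga_cyc a, ga_sub]
theorem ga_sub₃ (a b c c' : AA) : ga a b (c - c') = ga a b c - ga a b c' := by simp only [← ga_cyc _ a, ga_sub]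
theorem ga_sum {ι : Type*} (s : Finset ι) (a : ι → AA) (b c : AA) : ga (∑ i ∈ s, a i) b c = ∑ i ∈ s, ga (a i) b c :=
  map_sum (gaL b c) a s
theorem ga_sum₂ {ι : Type*} (s : Finset ι) (a : AA) (b : ι → AA) (c : AA) :
    ga a (∑ i ∈ s, b i) c = ∑ i ∈ s, ga a (b i) c := by simp only [ga_cyc a, ga_sum]
theorem ga_sum₃ {ι : Type*} (s : Finset ι) (a b : AA) (c : ι → AA) :
    ga a b (∑ i ∈ s, c i) = ∑ i ∈ s, ga a b (c i) := by simp only [← ga_cyc _ a, ga_sum]

/-- the part of dimension 98280 -/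
noncomputable def B0 : Submodule FF MI := Submodule.span FF (NN '' {r | Mn r})
theorem NN_mem {r : LL} (h : Mn r) : NN r ∈ B0 := Submodule.subset_span ⟨r, h, rfl⟩
theorem B0_ind {P : MI → Prop} (h1 : ∀ r, Mn r → P (NN r)) (h0 : P 0) (ha : ∀ f g, P f → P g → P (f + g))
    (hs : ∀ (c : FF) f, P f → P (c • f)) {f : MI} (hf : f ∈ B0) : P f :=
  Submodule.span_induction (p := fun f _ => P f) (by rintro _ ⟨r, hr, rfl⟩; exact h1 r hr) h0
    (fun f g _ _ => ha f g) (fun c f _ => hs c f) hf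
theorem B0_symm {f : MI} (hf : f ∈ B0) : fᵀ = f :=
  B0_ind (P := fun f => fᵀ = f) (fun _ => NN_symm) rfl (fun f g h k => by rw [transpose_add, h, k])
    (fun c f h => by rw [transpose_smul, h]) hf
/-- the algebra -/
noncomputable def BB : Submodule FF AA where
  carrier := {a | a.1ᵀ = a.1 ∧ a.2.1 ∈ B0}
  add_mem' := fun h k => ⟨by rw [Prod.fst_add, transpose_add, h.1, k.1], add_mem h.2 k.2⟩
  zero_mem' := ⟨rfl, zero_mem _⟩
  smul_mem' := fun c _ h => ⟨by rw [Prod.smul_fst, transpose_smul, h.1], B0.smul_mem c h.2⟩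
theorem mem_BB {a : AA} : a ∈ BB ↔ a.1ᵀ = a.1 ∧ a.2.1 ∈ B0 := Iff.rfl

theorem trace_swap {n : Type*} [Fintype n] {f g h : Matrix n n FF} (hf : fᵀ = f) (hg : gᵀ = g) (hh : hᵀ = h) :
    (f * g * h).trace = (f * h * g).trace := by
  rw [← trace_transpose, transpose_mul, transpose_mul, hf, hg, hh, ← Matrix.mul_assoc, trace_mul_cycle]
theorem gU_swap {A : MG} {f : MI} (hA : Aᵀ = A) (hf : fᵀ = f) (u v : II → FF) : gU A f u v = gU A f v u := by
  rw [gU, gU, dotProduct_mulVec, ← mulVec_transpose, transpose_add, Lo_symm hA, hf, dotProduct_comm]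
theorem ga_swap {a b c : AA} (ha : a ∈ BB) (hb : b ∈ BB) (hc : c ∈ BB) : ga a b c = ga a c b := by
  have a2 := B0_symm ha.2
  have b2 := B0_symm hb.2
  have c2 := B0_symm hc.2
  rw [ga, ga, gU_swap ha.1 a2, gU_swap hb.1 b2, gU_swap hc.1 c2]
  simp only [gA, gH, gF, trace_swap a2 b2 c2, trace_swap (Hat_symm ha.1) b2 c2, trace_swap (Hat_symm hb.1) c2 a2,
    trace_swap (Hat_symm hc.1) a2 b2]
  ring

/-! ### values on the basis vectors -/

@[simp] theorem gA_zero₁ (B C : MG) : gA 0 B C = 0 := by simp [gA]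
@[simp] theorem gA_zero₂ (B C : MG) : gA B 0 C = 0 := by simp [gA]
@[simp] theorem gA_zero₃ (B C : MG) : gA B C 0 = 0 := by simp [gA]
@[simp] theorem gH_zero₁ (f g : MI) : gH 0 f g = 0 := by simp [gH]
@[simp] theorem gH_zero₂ (A : MG) (f : MI) : gH A 0 f = 0 := by simp [gH]
@[simp] theorem gH_zero₃ (A : MG) (f : MI) : gH A f 0 = 0 := by simp [gH]
@[simp] theorem gF_zero₁ (f g : MI) : gF 0 f g = 0 := by simp [gF]
@[simp] theorem gF_zero₂ (f g : MI) : gF f 0 g = 0 := by simp [gF]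
@[simp] theorem gF_zero₃ (f g : MI) : gF f g 0 = 0 := by simp [gF]
@[simp] theorem gU_zero₁ (u v : II → FF) : gU 0 0 u v = 0 := by simp [gU]
@[simp] theorem gU_zero₂ (A : MG) (f : MI) (v : II → FF) : gU A f 0 v = 0 := by simp [gU]
@[simp] theorem gU_zero₃ (A : MG) (f : MI) (v : II → FF) : gU A f v 0 = 0 := by simp [gU]

theorem gH_self (A : MG) {r : LL} (h : Mn r) : gH A (NN r) (NN r) = 8 * qf A r := by
  have := nC_ne
  rw [gH, Matrix.mul_assoc, NN, ← mul_kronecker_mul, Hat, ← mul_kronecker_mul, xm_sq, h.qq, MM_sq h, trace_kronecker]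
  simp only [sn_zero, one_smul, mul_one, trace_one, ← nC.eq_1, mul_add, sub_mul, mul_smul_comm, smul_mul_assoc,
    one_mul, trace_add, trace_sub, trace_smul, smul_eq_mul, trace_mul_Rk, card_golayPt]
  rw [Rk, trace_vecMulVec, cz_dot, ← sqNorm_eq_dot, h]
  have := ff_ne 216
  field_simp
  push_cast
  ring
theorem gH_ne (A : MG) {r s : LL} (h : ¬ Cg (r + s : LL) 0) : gH A (NN r) (NN s) = 0 := by
  rw [gH, Matrix.mul_assoc, NN, NN, ← mul_kronecker_mul, Hat, ← mul_kronecker_mul, xm_mul, trace_kronecker, one_mul,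
    trace_smul, trace_xm_of_not h, smul_zero, mul_zero, mul_zero]
theorem gF_ne {r s t : LL} (h : ¬ Cg (r + s + t : LL) 0) : gF (NN r) (NN s) (NN t) = 0 := by
  rw [gF, NN, NN, NN, ← mul_kronecker_mul, ← mul_kronecker_mul, xm_mul, smul_mul_assoc, xm_mul, trace_kronecker,
    trace_smul, trace_smul, trace_xm_of_not h, smul_zero, smul_zero, mul_zero, mul_zero]
theorem tri_dot {r s t : LL} (hr : Mn r) (hs : Mn s) (ht : Mn t) (h : Cg (r + s + t : LL) 0) :
    (MM r * MM s * MM t).trace = 7168 := by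
  rw [AddSubgroup.coe_add, ← cg_iff_add t.2, AddSubgroup.coe_add] at h
  unfold Mn at hr hs ht
  have k : ∀ u : ZV, ((t : ZV) = u ∨ (t : ZV) = -u) → (u = r + s ∨ u = r - s) → (MM r * MM s * MM t).trace = 7168 := by
    intro u h1 h2
    have hr' := sqNorm_eq_dot r ▸ hr
    have hs' := sqNorm_eq_dot s ▸ hs
    rw [trace_MMM, hr, hs, ht]
    rcases h2 with rfl | rfl <;> rcases h1 with h1 | h1 <;> rw [h1] at ht ⊢ <;>
      simp only [sqNorm_neg, sqNorm_add, sqNorm_sub, hr, hs] at ht <;>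
      simp only [sub_eq_add_neg, dot_add, dot_neg, hr', hs', dot_comm (s : ZV) r] <;>
      first | rw [show dotInt (r : ZV) s = 16 by omega]; rfl | rw [show dotInt (r : ZV) s = -16 by omega]; rfl
  rcases le_total (dotInt (r : ZV) s) 0 with h0 | h0
  · refine k _ ?_ (Or.inl rfl)
    rcases h.symm.short (add_mem r.2 s.2) (by omega) (by rw [sqNorm_add]; omega) with h | h | h
    exacts [Or.inl h, Or.inr h, by omega]
  · refine k _ ?_ (Or.inr rfl)
    rcases (h.symm.trans (cg_sub_add s.2).symm).short (sub_mem r.2 s.2) (by omega) (by rw [sqNorm_sub]; omega)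
      with h | h | h
    exacts [Or.inl h, Or.inr h, by omega]
theorem gF_of {r s t : LL} (hr : Mn r) (hs : Mn s) (ht : Mn t) (h : Cg (r + s + t : LL) 0) :
    gF (NN r) (NN s) (NN t) = 64 * sn (ph r (ee s)) := by
  have := nC_ne
  have := ff_ne 112
  rw [gF, NN, NN, NN, ← mul_kronecker_mul, ← mul_kronecker_mul, xm_mul, smul_mul_assoc, trace_kronecker,
    tri_dot hr hs ht h, xm_cg (v := r + s) (w := t) ((cg_iff_add t.2).2 h), xm_sq, ht.qq]
  simp only [sn_zero, one_smul, trace_smul, trace_one, ← nC.eq_1, smul_eq_mul]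
  field_simp
  ring

/-! ### the bilinear form -/

/-- the identity element (up to a scalar) -/
def Id : AA := (1, 0, 0)
theorem Id_mem : Id ∈ BB := ⟨transpose_one, zero_mem _⟩
theorem ga_Id (a b : AA) : ga Id a b = 256 * (a.1 * b.1).trace + gH 1 a.2.1 b.2.1 + 128 * a.2.2 ⬝ᵥ b.2.2 := by
  have : Lo 1 = (128 : FF) • 1 := by
    rw [Lo, trace_one, card_golayPt, ← add_smul, smul_kronecker, one_kronecker_one]; rfl
  simp only [ga, Id, gH_zero₂, gH_zero₃, gF_zero₁, gU_zero₂, gU_zero₃, gA, gU, add_zero, one_mul, this,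
    trace_mul_comm b.1, smul_mulVec, one_mulVec, dotProduct_smul, smul_eq_mul, mulVec_zero, zero_dotProduct,
    dotProduct_zero]
  ring
theorem gH_one_self {r : LL} (h : Mn r) : gH 1 (NN r) (NN r) = 256 := by
  rw [gH_self _ h, qf, one_mulVec, cz_dot, ← sqNorm_eq_dot, h]; rfl
theorem B0_expand {f : MI} (hf : f ∈ B0) : (512 : FF) • f = ∑ r ∈ finite_mn.toFinset, gH 1 f (NN r) • NN r := by
  classical
  refine B0_ind (P := fun f => (512 : FF) • f = ∑ r ∈ finite_mn.toFinset, gH 1 f (NN r) • NN r) (fun s hs => ?_)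
    (by simp) (fun f g h k => ?_) (fun c f h => ?_) hf
  · rw [← Finset.sum_subset (s₁ := {s, -s}) (by
      intro r hr
      rcases Finset.mem_insert.1 hr with rfl | hr
      · exact finite_mn.mem_toFinset.2 hs
      · rw [Finset.mem_singleton.1 hr]; exact finite_mn.mem_toFinset.2 hs.neg) fun r hr h => by
        rw [gH_ne _ (by rw [hs.cg_iff (finite_mn.mem_toFinset.1 hr)]; simpa using h), zero_smul],
      Finset.sum_pair hs.ne_neg, NN_neg, gH_one_self hs, ← add_smul]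
    rfl
  · simp only [smul_add, h, k, gH, mul_add, add_mul, trace_add, add_smul, Finset.sum_add_distrib]
  · rw [smul_comm, h, Finset.smul_sum]
    simp only [gH, mul_smul_comm, smul_mul_assoc, trace_smul, smul_eq_mul, smul_smul, mul_left_comm c]
theorem B0_eq_zero {f : MI} (hf : f ∈ B0) (h : ∀ r, Mn r → gH 1 f (NN r) = 0) : f = 0 := by
  have := B0_expand hf
  rw [Finset.sum_eq_zero fun r hr => by rw [h r (finite_mn.mem_toFinset.1 hr), zero_smul]] at this
  exact (smul_eq_zero.1 this).resolve_left (ff_ne 512)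
/-- symmetric matrix units -/
def SS (i j : GolayPt) : MG := single i j 1 + single j i 1
theorem SS_symm (i j : GolayPt) : (SS i j)ᵀ = SS i j := by simp [SS, add_comm]
theorem sym_eq_zero {A : MG} (hA : Aᵀ = A) (h : ∀ i j, (A * SS i j).trace = 0) : A = 0 := by
  ext i j
  have := h i j
  rw [SS, mul_add, trace_add, trace_mul_single, trace_mul_single, ← transpose_apply A i j, hA] at this
  have h2 : (2 : FF) * A i j = 0 := by simpa [two_mul] using this
  exact (mul_eq_zero.1 h2).resolve_left (ff_ne 2)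
theorem nondeg {a : AA} (ha : a ∈ BB) (h : ∀ b ∈ BB, ga Id a b = 0) : a = 0 := by
  refine Prod.ext (sym_eq_zero ha.1 fun i j => ?_) (Prod.ext (B0_eq_zero ha.2 fun r hr => ?_) (funext fun x => ?_))
  · simpa [ga_Id, ff_ne 256] using h (SS i j, 0, 0) ⟨SS_symm i j, zero_mem _⟩
  · simpa [ga_Id] using h (0, NN r, 0) ⟨rfl, NN_mem hr⟩
  · simpa [ga_Id, ff_ne 128] using h (0, 0, Pi.single x 1) ⟨rfl, zero_mem _⟩

/-! ### the automorphism group -/

/-- the automorphism group -/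
noncomputable def GG : Subgroup (BB ≃ₗ[FF] BB) where
  carrier := {g | (∀ a b c : BB, ga (g a) (g b) (g c) = ga a b c) ∧ g ⟨Id, Id_mem⟩ = ⟨Id, Id_mem⟩}
  one_mem' := ⟨fun _ _ _ => rfl, rfl⟩
  mul_mem' := fun {g h} hg hh => ⟨fun a b c => (hg.1 _ _ _).trans (hh.1 a b c), by
    rw [LinearEquiv.mul_apply, hh.2, hg.2]⟩
  inv_mem' := fun {g} hg => ⟨fun a b c => by rw [← hg.1]; simp, g.symm_apply_eq.2 hg.2.symm⟩
instance finite_AA : Finite AA :=
  inferInstanceAs (Finite ((GolayPt → GolayPt → FF) × (II → II → FF) × (II → FF)))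
instance finite_GG : Finite GG :=
  Finite.of_injective (fun g : GG => (g.1 : BB → BB)) fun _ _ e => Subtype.ext (DFunLike.coe_injective e)
theorem GG_ga (g : GG) (a b c : BB) : ga (g.1 a) (g.1 b) (g.1 c) = ga a b c := g.2.1 a b c
theorem GG_Id (g : GG) (a b : BB) : ga Id (g.1 a) (g.1 b) = ga Id a b := by
  have := g.2.1 ⟨Id, Id_mem⟩ a b
  rwa [g.2.2] at this
theorem GG_ext {g h : GG} (e : ∀ a : BB, (g.1 a : AA) = h.1 a) : g = h :=
  Subtype.ext (LinearEquiv.ext fun a => Subtype.ext (e a))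
theorem GG_mul (g h : GG) (a : BB) : (g * h).1 a = g.1 (h.1 a) := rfl
theorem exists_GG (f : BB →ₗ[FF] BB) (h1 : ∀ a b c : BB, ga (f a) (f b) (f c) = ga a b c)
    (h2 : f ⟨Id, Id_mem⟩ = ⟨Id, Id_mem⟩) : ∃ g : GG, ∀ a, g.1 a = f a := by
  refine ⟨⟨LinearEquiv.ofInjectiveEndo f ((injective_iff_map_eq_zero f).2 fun a ha => ?_), h1, h2⟩, fun _ => rfl⟩
  refine Subtype.ext (nondeg a.2 fun b hb => ?_)
  rw [← h1 ⟨Id, Id_mem⟩ a ⟨b, hb⟩, ha, ga_cyc]
  exact map_zero (gaL _ _)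

theorem family_aux {V K : Type*} [AddCommGroup V] [Module FF V] [FiniteDimensional FF V] (γ : V → V → V →ₗ[FF] FF)
    (cyc : ∀ a b c, γ a b c = γ b c a) (o : V) (nd : ∀ a, (∀ b, γ o a b = 0) → a = 0) (e e' : K → V)
    (h1 : Submodule.span FF (Set.range e) = ⊤) (h2 : (o, o) ∈ Submodule.span FF (Set.range fun k => (e k, e' k)))
    (h3 : ∀ i j k, γ (e' i) (e' j) (e' k) = γ (e i) (e j) (e k)) :
    ∃ f : V →ₗ[FF] V, (∀ a b c, γ (f a) (f b) (f c) = γ a b c) ∧ f o = o ∧ ∀ k, f (e k) = e' k := by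
  set Γ := Submodule.span FF (Set.range fun k => (e k, e' k)) with hΓ
  have st : ∀ b c : V × V, (∀ i, γ b.2 c.2 (e' i) = γ b.1 c.1 (e i)) → ∀ a ∈ Γ, γ b.2 c.2 a.2 = γ b.1 c.1 a.1 :=
    fun b c h a ha => Submodule.span_induction (p := fun a _ => γ b.2 c.2 a.2 = γ b.1 c.1 a.1)
      (by rintro _ ⟨i, rfl⟩; exact h i) (by simp) (fun x y _ _ h k => by simp [h, k]) (fun t x _ h => by simp [h]) ha
  have key : ∀ a ∈ Γ, ∀ b ∈ Γ, ∀ c ∈ Γ, γ a.2 b.2 c.2 = γ a.1 b.1 c.1 := fun a ha b hb c hc =>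
    st a b (fun i => by
      rw [← cyc, ← cyc (e i)]
      exact st (e i, e' i) a (fun j => by
        rw [← cyc, ← cyc (e j)]
        exact st (e j, e' j) (e i, e' i) (fun k => h3 j i k) a ha) b hb) c hc
  let p1 : Γ →ₗ[FF] V := (LinearMap.fst _ _ _).comp Γ.subtype
  let p2 : Γ →ₗ[FF] V := (LinearMap.snd _ _ _).comp Γ.subtype
  have s1 : Function.Surjective p1 := by
    rw [← LinearMap.range_eq_top, eq_top_iff, ← h1, Submodule.span_le]
    rintro _ ⟨k, rfl⟩
    exact ⟨⟨_, Submodule.subset_span ⟨k, rfl⟩⟩, rfl⟩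
  have i2 : Function.Injective p2 := (injective_iff_map_eq_zero p2).2 fun a ha => by
    refine Subtype.ext (Prod.ext (nd _ fun b => ?_) ha)
    obtain ⟨c, hc⟩ := s1 b
    have := key _ h2 _ a.2 _ c.2
    rw [show a.1.2 = 0 from ha, show c.1.1 = _ from hc, ← cyc, map_zero] at this
    exact this.symm
  have i1 : Function.Injective p1 := (LinearMap.injective_iff_surjective_of_finrank_eq_finrank
    ((LinearMap.finrank_le_finrank_of_injective i2).antisymm (LinearMap.finrank_le_finrank_of_surjective s1))).2 s1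
  let q := LinearEquiv.ofBijective p1 ⟨i1, s1⟩
  have hq : ∀ x : Γ, (p2.comp q.symm.toLinearMap) x.1.1 = x.1.2 := fun x => congrArg p2 (q.symm_apply_apply x)
  refine ⟨p2.comp q.symm.toLinearMap, fun a b c => ?_, hq ⟨_, h2⟩, fun k => hq ⟨_, Submodule.subset_span ⟨k, rfl⟩⟩⟩
  obtain ⟨a, rfl⟩ := s1 a
  obtain ⟨b, rfl⟩ := s1 b
  obtain ⟨c, rfl⟩ := s1 c
  rw [show p1 a = a.1.1 from rfl, show p1 b = b.1.1 from rfl, show p1 c = c.1.1 from rfl, hq, hq, hq]
  exact key _ a.2 _ b.2 _ c.2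

/-- an automorphism from two spanning families with the same triple products -/
theorem exists_GG_of_family {K : Type*} (e e' : K → BB) (h1 : Submodule.span FF (Set.range e) = ⊤)
    (h2 : ((⟨Id, Id_mem⟩, ⟨Id, Id_mem⟩) : BB × BB) ∈ Submodule.span FF (Set.range fun k => (e k, e' k)))
    (h3 : ∀ i j k, ga (e' i) (e' j) (e' k) = ga (e i) (e j) (e k)) : ∃ g : GG, ∀ k, g.1 (e k) = e' k := by
  obtain ⟨f, a1, a2, a3⟩ := family_aux (fun a b : BB => (gaL a b).comp BB.subtype) (fun a b c => ga_cyc _ _ _)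
    ⟨Id, Id_mem⟩ (fun a h => Subtype.ext (nondeg a.2 fun b hb => (ga_cyc _ _ _).symm.trans (h ⟨b, hb⟩))) e e' h1 h2
    fun i j k => h3 k i j
  obtain ⟨g, hg⟩ := exists_GG f (fun a b c => a1 b c a) a2
  exact ⟨g, fun k => (hg _).trans (a3 k)⟩

/-! ### the action of the lifts of the elements of `Co0` -/

/-- the matrix of an element of `Co0` -/
noncomputable def mg (g : Co0) : MG := fun p q => (8 : FF)⁻¹ * cz (g • E8 q) p
theorem mg_mulVec (g : Co0) (v : LL) : mg g *ᵥ cz v = cz (g • v) := by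
  have h1 : (8 : ℤ) • v = ∑ q, (v : ZV) q • E8 q := Subtype.ext (funext fun p => by
    simp [AddSubmonoidClass.coe_finsetSum, e8_apply, mul_comm, -Fintype.sum_option])
  have h2 : (8 : ℤ) • g • v = ∑ q, (v : ZV) q • g • E8 q := by
    rw [← co_zsmul, h1]; simp only [← co_zsmul]; exact map_sum (coHom g) _ _
  funext p
  have h3 := congrArg (fun x : LL => (((x : ZV) p : ℤ) : FF)) h2
  simp only [AddSubgroup.coe_zsmul, Pi.smul_apply, smul_eq_mul, AddSubmonoidClass.coe_finsetSum, Finset.sum_apply,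
    Int.cast_mul, Int.cast_sum, Int.cast_ofNat] at h3
  rw [← mul_right_inj' (ff_ne 8), cz, h3, mulVec, dotProduct, Finset.mul_sum]
  exact Finset.sum_congr rfl fun q _ => by rw [mg, ← mul_assoc, ← mul_assoc, mul_inv_cancel₀ (ff_ne 8), one_mul, mul_comm]; rfl
theorem mg_ext {A B : MG} (h : ∀ v, A *ᵥ cz v = B *ᵥ cz v) : A = B := by
  ext p q
  have := congrFun (h (E8 q)) p
  simpa [mulVec, dotProduct, cz, e8_apply, ff_ne 8] using this
theorem mg_one : mg 1 = 1 := mg_ext fun v => by rw [mg_mulVec, one_smul, one_mulVec]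
theorem mg_mul (g h : Co0) : mg (g * h) = mg g * mg h := mg_ext fun v => by
  rw [← mulVec_mulVec, mg_mulVec, mg_mulVec, mg_mulVec, mul_smul]
theorem mg_negC : mg negC = -1 := mg_ext fun v => by rw [mg_mulVec, negC_smul, cz_neg, neg_mulVec, one_mulVec]
theorem mg_orth (g : Co0) : (mg g)ᵀ * mg g = 1 := by
  ext p q
  have := cz_dot (g • E8 p) (g • E8 q)
  rw [co_dot, coe_E8, coe_E8, dot_e8, e8_apply] at this
  have h8 := ff_ne 8
  rw [mul_apply, one_apply]
  simp only [transpose_apply, mg, mul_mul_mul_comm _ (cz _ _), ← Finset.mul_sum]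
  rw [← dotProduct, this]
  by_cases h : p = q
  · subst h; simp only [if_true]; field_simp; rfl
  · simp [h, Ne.symm h]
theorem orth_comm {n : Type*} [Fintype n] [DecidableEq n] {P Q : Matrix n n FF} (h : P * Q = 1) : Q * P = 1 :=
  mul_eq_one_comm.1 h
theorem mg_orth' (g : Co0) : mg g * (mg g)ᵀ = 1 := orth_comm (mg_orth g)
theorem mg_Rk (g : Co0) (v : LL) : mg g * Rk v * (mg g)ᵀ = Rk (g • v) := by
  rw [Rk, mul_vecMulVec, vecMulVec_mul, vecMul_transpose, mg_mulVec, Rk]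

/-- the action of a pair of matrices -/
noncomputable def actA (m : MG) (h : MC) : AA →ₗ[FF] AA where
  toFun a := (m * a.1 * mᵀ, (m ⊗ₖ h) * a.2.1 * (m ⊗ₖ h)ᵀ, (m ⊗ₖ h) *ᵥ a.2.2)
  map_add' a b := by simp [mul_add, add_mul, mulVec_add]
  map_smul' c a := by simp [mulVec_smul]
theorem actA_apply (m : MG) (h : MC) (a : AA) :
    actA m h a = (m * a.1 * mᵀ, (m ⊗ₖ h) * a.2.1 * (m ⊗ₖ h)ᵀ, (m ⊗ₖ h) *ᵥ a.2.2) := rfl
theorem actA_mul (m m' : MG) (h h' : MC) (a : AA) : actA m h (actA m' h' a) = actA (m * m') (h * h') a := by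
  simp only [actA_apply, mul_kronecker_mul, transpose_mul, Matrix.mul_assoc, mulVec_mulVec]
theorem trace_conj3 {n : Type*} [Fintype n] [DecidableEq n] {P : Matrix n n FF} (h : Pᵀ * P = 1) (f g k : Matrix n n FF) :
    (P * f * Pᵀ * (P * g * Pᵀ) * (P * k * Pᵀ)).trace = (f * g * k).trace := by
  have : ∀ X : Matrix n n FF, Pᵀ * (P * X) = X := fun X => by rw [← Matrix.mul_assoc, h, Matrix.one_mul]
  simp only [Matrix.mul_assoc, this]
  rw [trace_mul_comm]; simp only [Matrix.mul_assoc, h, Matrix.mul_one]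
theorem trace_conj {n : Type*} [Fintype n] [DecidableEq n] {P : Matrix n n FF} (h : Pᵀ * P = 1) (f : Matrix n n FF) :
    (P * f * Pᵀ).trace = f.trace := by rw [trace_mul_cycle, h, Matrix.one_mul]
theorem kron_orth {m : MG} {h : MC} (hm : mᵀ * m = 1) (hh : hᵀ * h = 1) : (m ⊗ₖ h)ᵀ * (m ⊗ₖ h) = 1 := by
  rw [← kroneckerMap_transpose, ← mul_kronecker_mul, hm, hh, one_kronecker_one]
theorem Lo_conj {m : MG} {h : MC} (hm : mᵀ * m = 1) (hh : hᵀ * h = 1) (A : MG) :
    Lo (m * A * mᵀ) = (m ⊗ₖ h) * Lo A * (m ⊗ₖ h)ᵀ := by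
  rw [Lo, Lo, ← kroneckerMap_transpose, ← mul_kronecker_mul, ← mul_kronecker_mul, trace_conj hm]
  simp [mul_add, add_mul, orth_comm hm, orth_comm hh]
theorem Hat_conj {m : MG} {h : MC} (hm : mᵀ * m = 1) (hh : hᵀ * h = 1) (A : MG) :
    Hat (m * A * mᵀ) = (m ⊗ₖ h) * Hat A * (m ⊗ₖ h)ᵀ := by
  rw [Hat, Hat, ← kroneckerMap_transpose, ← mul_kronecker_mul, ← mul_kronecker_mul, trace_conj hm]
  simp [mul_sub, sub_mul, orth_comm hm, orth_comm hh]
theorem ga_actA {m : MG} {h : MC} (hm : mᵀ * m = 1) (hh : hᵀ * h = 1) (a b c : AA) :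
    ga (actA m h a) (actA m h b) (actA m h c) = ga a b c := by
  have hP := kron_orth hm hh
  have k : ∀ A f u v, gU (m * A * mᵀ) ((m ⊗ₖ h) * f * (m ⊗ₖ h)ᵀ) ((m ⊗ₖ h) *ᵥ u) ((m ⊗ₖ h) *ᵥ v) = gU A f u v := by
    intro A f u v
    rw [gU, gU, Lo_conj hm hh, ← add_mul, ← mul_add, mulVec_mulVec, Matrix.mul_assoc, hP, Matrix.mul_one,
      ← mulVec_mulVec, dotProduct_mulVec, ← vecMul_transpose, vecMul_vecMul, hP, vecMul_one]
  simp only [ga, actA_apply, k, gA, gH, gF, Hat_conj hm hh, trace_conj3 hm, trace_conj3 hP]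

/-- `h` is an orthogonal matrix inducing `g` on the extraspecial group -/
def Lift (g : Co0) (h : MC) : Prop := hᵀ * h = 1 ∧ ∀ v : LL, ∃ a, h * xm v * hᵀ = sn a • xm (g • v)
theorem Lift.NN {g : Co0} {h : MC} {r : LL} {a : ZMod 2} (e : h * xm r * hᵀ = sn a • xm (g • r)) :
    (mg g ⊗ₖ h) * NN r * (mg g ⊗ₖ h)ᵀ = sn a • NN (g • r) := by
  rw [Gr.NN, Gr.NN, ← kroneckerMap_transpose, ← mul_kronecker_mul, ← mul_kronecker_mul, e, kronecker_smul, MM, MM,
    mul_sub, sub_mul, mg_Rk, mul_smul_comm, smul_mul_assoc, mul_one, mg_orth']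
theorem Lift.mem {g : Co0} {h : MC} (hL : Lift g h) {a : AA} (ha : a ∈ BB) : actA (mg g) h a ∈ BB :=
  ⟨by simp only [actA_apply, transpose_mul, transpose_transpose, ha.1, Matrix.mul_assoc],
    B0_ind (P := fun f => (mg g ⊗ₖ h) * f * (mg g ⊗ₖ h)ᵀ ∈ B0) (fun r hr => by
      obtain ⟨t, ht⟩ := hL.2 r
      rw [Lift.NN ht]; exact B0.smul_mem _ (NN_mem (hr.smul g))) (by simp)
      (fun f f' h1 h2 => by rw [mul_add, add_mul]; exact add_mem h1 h2)
      (fun c f h1 => by rw [mul_smul_comm, smul_mul_assoc]; exact B0.smul_mem _ h1) ha.2⟩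
theorem Lift.exists_act {g : Co0} {h : MC} (hL : Lift g h) : ∃ y : GG, ∀ a, (y.1 a : AA) = actA (mg g) h a := by
  obtain ⟨y, hy⟩ := exists_GG ((actA (mg g) h).restrict fun _ => hL.mem) (fun a b c => ga_actA (mg_orth g) hL.1 _ _ _)
    (Subtype.ext (by simp [actA_apply, Id, mg_orth']))
  exact ⟨y, fun a => by rw [hy]; rfl⟩
/-- the automorphism given by a lift -/
noncomputable def Lift.act {g : Co0} {h : MC} (hL : Lift g h) : GG := hL.exists_act.choose
theorem Lift.act_apply {g : Co0} {h : MC} (hL : Lift g h) (a : BB) : (hL.act.1 a : AA) = actA (mg g) h a :=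
  hL.exists_act.choose_spec a
theorem Lift.mul {g g' : Co0} {h h' : MC} (hL : Lift g h) (hL' : Lift g' h') : Lift (g * g') (h * h') :=
  ⟨by rw [transpose_mul, Matrix.mul_assoc, ← Matrix.mul_assoc hᵀ, hL.1, Matrix.one_mul, hL'.1], fun v => by
    obtain ⟨a, ha⟩ := hL'.2 v
    obtain ⟨b, hb⟩ := hL.2 (g' • v)
    refine ⟨a + b, ?_⟩
    rw [transpose_mul, Matrix.mul_assoc h, ← Matrix.mul_assoc _ h'ᵀ, Matrix.mul_assoc h, ha, mul_smul_comm,
      smul_mul_assoc, hb, smul_smul, sn_add, mul_smul g]⟩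
theorem Lift.act_mul {g g' : Co0} {h h' : MC} (hL : Lift g h) (hL' : Lift g' h') :
    (hL.mul hL').act = hL.act * hL'.act := GG_ext fun a => by
  rw [GG_mul, Lift.act_apply, Lift.act_apply, Lift.act_apply, actA_mul, mg_mul]
theorem lift_xm (t : ZMod 2) (w : LL) : Lift 1 (sn t • xm w) :=
  ⟨by rw [transpose_smul, smul_mul_smul_comm, sn_mul_self, one_smul, orth_comm (xm_orth w)], fun v =>
    ⟨dp w v, by rw [transpose_smul, smul_mul_assoc, smul_mul_smul_comm, sn_mul_self, one_smul, xm_comm, one_smul,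
      smul_mul_assoc, Matrix.mul_assoc, xm_orth, Matrix.mul_one]⟩⟩
/-- the elements of the extraspecial group -/
noncomputable def xG (w : LL) : GG := (lift_xm 0 w).act
/-- the central involution -/
noncomputable def zG : GG := (lift_xm 1 0).act
theorem zG_apply (a : BB) : (zG.1 a : AA) = (a.1.1, a.1.2.1, -a.1.2.2) := by
  have : (1 : MG) ⊗ₖ (-1 : MC) = -1 := by rw [← neg_one_smul FF (1 : MC), kronecker_smul, one_kronecker_one]; simp
  simp [zG, Lift.act_apply, actA_apply, mg_one, xm_zero, this, neg_mulVec]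
theorem xG_apply (w : LL) (a : BB) : ((xG w).1 a : AA) = actA 1 (xm w) a := by
  rw [xG, Lift.act_apply, mg_one, sn_zero, one_smul]
theorem xm_NN (w r : LL) : ((1 : MG) ⊗ₖ xm w) * NN r * ((1 : MG) ⊗ₖ xm w)ᵀ = sn (dp w r) • NN r := by
  have := Lift.NN (g := 1) (h := xm w) (r := r) (a := dp w r) (by
    rw [xm_comm, one_smul, smul_mul_assoc, Matrix.mul_assoc, xm_orth, Matrix.mul_one])
  rwa [mg_one, one_smul] at this

end CA.Gr
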