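import Cfsg.Agent.Lib.Co.MType2
import Cfsg.Agent.Lib.Co.Sect
import Cfsg.Agent.Lib.Co.CT7

/-!
From the description of an involution centraliser to a simple group of Monster type.
-/

set_option autoImplicit false

namespace CA.Gr
open Cfsg CA.Gol CA.Co CA CA.Ex2 CA.Core Subgroup
open scoped Pointwise commutatorElement

/-- check for an involution of `M24` with fixed points -/
def ok2A (c : ℕ) : Bool := inM24 c && ordIs c 2 && !(Nat.beq (popc (fixM c)) 0)

theorem ok2A_in {c : ℕ} (h : ok2A c = true) : inM24 c = true := by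
  simp only [ok2A, Bool.and_eq_true] at h; exact h.1.1

theorem conj_2A {c : ℕ} (h : ok2A c = true) : ∃ k : M24, k * m24 (ok2A_in h) * k⁻¹ = m24 r2A_in := by
  have h0 := ok2A_in h
  simp only [ok2A, Bool.and_eq_true, Bool.not_eq_true', beq_false_iff] at h
  obtain ⟨k, hk, e⟩ := class_2A (perm_mem_M24 h0) ((ordIs_iff Nat.prime_two).1 (by rw [code_perm' h0]; exact h.1.2))
    (by rw [fixS_perm h0, card_fs]; exact h.2)
  exact ⟨⟨k, hk⟩, Subtype.ext e⟩

theorem M24_normal_2A {K : Subgroup M24} (hK : K.Normal) {c : ℕ} (h : ok2A c = true) (hc : m24 (ok2A_in h) ∈ K) :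
    K = ⊤ := by
  have h1 : ∀ {d : ℕ} (hd : ok2A d = true), m24 (ok2A_in hd) ∈ K := fun hd => by
    obtain ⟨k, e⟩ := conj_2A h
    obtain ⟨l, e'⟩ := conj_2A hd
    have := hK.conj_mem' _ (e' ▸ e ▸ hK.conj_mem _ hc k) l
    simpa [mul_assoc] using this
  have h2 : ∀ {g a b d : ℕ} (hg : inM24 g = true), (ok2A a && ok2A b && ok2A d &&
      Nat.beq (Gol.mul (Gol.mul a b) d) g) = true → perm g ∈ K.map M24.subtype := fun hg k => by
    simp only [Bool.and_eq_true, beq_iff] at k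
    refine ⟨_, mul_mem (mul_mem (h1 k.1.1.1) (h1 k.1.1.2)) (h1 k.1.2), code_inj ?_⟩
    rw [code_perm' hg]
    refine Eq.trans ?_ k.2
    show code ((_ * _ * _ : M24) : Equiv.Perm GolayPt) = _
    rw [code_mul', code_mul', code_m24, code_m24, code_m24]
  have h3 : M24 ≤ K.map M24.subtype := M24_le_closure.trans ((closure_le _).2 (by
    rintro _ (rfl | rfl)
    · exact h2 (a := 0xbba3499eb0158c5229289358b1bc01) (b := 0xb96549d61108c8c5a8063a2cd709e9)
        (d := 0xb850c8ba703c9b45953579944182c2) genA_in (by decide +kernel)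
    · exact h2 (a := 0x45aa22c9cf844092299739a6b1d02d) (b := 0x6c2a694e367a2ea5b0ae1d12438820)
        (d := 0xbb02e9a1447d1766c532118b019ea0) genB_in (by decide +kernel)))
  refine eq_top_iff.2 fun g _ => ?_
  obtain ⟨k, hk, e⟩ := h3 g.2
  exact (Subtype.ext e : k = g) ▸ hk

/-- the normal closure of the sign changes is everything -/
theorem co1_normal {N : Subgroup Spor.Co1} (hN : N.Normal) (h : E1 ≤ N) : N = ⊤ := by
  have h1 : et1 ∈ N := by
    obtain ⟨a, ha, e⟩ := exists_cube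
    have k : et1 * a * et1 * a * (et1 * a) = 1 := by rw [← e, pow_three]; simp only [mul_assoc]
    have k1 : et1 * a * et1 ∈ N := by simpa only [et1_inv] using hN.conj_mem a (h ha) et1
    have k2 : et1 * a ∈ N := by
      rw [← mul_mem_cancel_left (mul_mem k1 (h ha)), k]; exact one_mem _
    exact (mul_mem_cancel_right (h ha)).1 k2
  have t0 : ok2A 0x2da959b5d07c64459d2851aec00443 = true := by decide +kernel
  have h2 : N.comap pm1 = ⊤ := by
    refine M24_normal_2A (hN.comap _) t0 ?_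
    have a1 := mr_sg (c := 0x066489) (by decide +kernel)
    have a2 := mr_mo (c := 0xb01036) (by decide +kernel) (ok2A_in t0)
    have a3 : et1 * (sgC (fs 0x066489) : Co0) * et1 = (mo 0xb01036 0x2da959b5d07c64459d2851aec00443 : Co0) := by
      rw [← eta_mr a1 a2 (by decide +kernel)]; rfl
    have a4 := mul_mem (mul_mem h1 (h a1.mem_E1)) h1
    rw [a3, mo, dif_pos (ok2A_in t0), QuotientGroup.mk_mul,
      mul_mem_cancel_left (h (mr_sg (c := 0xb01036) (by decide +kernel)).mem_E1)] at a4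
    rw [mem_comap, pm1_eq, sgC_empty, one_mul]
    exact a4
  have h3 : N1 ≤ N := by
    rw [← E1_sup_range]
    refine sup_le h ?_
    rintro _ ⟨σ, rfl⟩
    exact h2.ge (mem_top σ)
  have h4 : (⊤ : Subgroup Co0) ≤ N.comap (QuotientGroup.mk' _) := by
    rw [← co0_gen]
    exact sup_le (fun g hg => h3 (mk_mem_N1.2 hg)) (zpowers_le.2 h1)
  refine eq_top_iff.2 fun g _ => ?_
  obtain ⟨g, rfl⟩ := QuotientGroup.mk_surjective g
  exact h4 (mem_top g)

theorem finrank_LL : Module.finrank ℤ LL = 24 := by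
  have e : Module.finrank ℤ ZV = 24 := by simp
  have : Module.Finite ℤ LL := Module.Finite.of_injective leechLattice.subtype.toIntLinearMap Subtype.val_injective
  refine le_antisymm (e ▸ LinearMap.finrank_le_finrank_of_injective (f := leechLattice.subtype.toIntLinearMap)
    Subtype.val_injective) (e ▸ LinearMap.finrank_le_finrank_of_injective
      (f := (AddMonoidHom.mk' (fun y : ZV => (⟨(8 : ℤ) • y, eight_mem y⟩ : LL))
        fun a b => Subtype.ext (smul_add _ _ _)).toIntLinearMap) fun a b k => eight_cancel (congrArg Subtype.val k))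

theorem index_two : (nsmulAddMonoidHom (α := LL) 2).range.index = 2 ^ 24 := by
  have : Module.Finite ℤ LL := Module.Finite.of_injective leechLattice.subtype.toIntLinearMap Subtype.val_injective
  rw [AddSubgroup.index_range_nsmul, finrank_LL]

/-- an invariant subgroup containing the doubles and something else is everything -/
theorem irred_LL {M : AddSubgroup LL} (h2 : ∀ v : LL, Cg v 0 → v ∈ M) (h : ∀ g : Co0, ∀ v ∈ M, g • v ∈ M) {u : LL}
    (hu : u ∈ M) (h0 : ¬ Cg u 0) (v : LL) : v ∈ M := by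
  have hM := (invM_of (M := M.map leechLattice.subtype)
    (fun w hw => ⟨(2 : ℤ) • ⟨w, hw⟩, h2 _ (cg_two hw), rfl⟩)
    (by rintro _ ⟨v, -, rfl⟩; exact v.2)
    (by
      rintro g w ⟨u, hu, e⟩
      obtain rfl : u = w := Subtype.ext e
      exact ⟨g • u, h g u hu, rfl⟩)).irred (x := u) ⟨u, hu, rfl⟩ fun ⟨w, hw, e⟩ => h0 (e ▸ cg_two hw)
  obtain ⟨w, hw, e⟩ := hM.ge v.2
  exact (Subtype.ext e : w = v) ▸ hw

theorem not_dvd_v0 : ¬ 16 ∣ dotInt ((⟨v0, v0_mem⟩ : LL) : ZV) (E8 (pt 1)) := by decide +kernel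

theorem cg_of_dot {u : LL} (h : ∀ w : LL, 16 ∣ dotInt (u : ZV) w) : Cg u 0 := by
  by_contra h0
  let M : AddSubgroup LL :=
    { carrier := {u | ∀ w : LL, 16 ∣ dotInt (u : ZV) w}
      zero_mem' := fun w => by simp [dotInt]
      add_mem' := fun {a b} ha hb w => by
        rw [AddSubgroup.coe_add, dotInt_add_left]; exact dvd_add (ha w) (hb w)
      neg_mem' := fun {a} ha w => by
        rw [AddSubgroup.coe_neg, dotInt_neg_left]; exact (ha w).neg_right }
  refine not_dvd_v0 (irred_LL (M := M) (fun v hv w => ?_) (fun g v hv w => ?_) h h0 _ _)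
  · simpa [dotInt] using hv.dot w.2
  · rw [← smul_inv_smul g w, co_dot]; exact hv _

variable {G : Type*} [Group G]

theorem MT_simple [Finite G] {Q : Subgroup G} {z : G} {π : ↥𝐂[z] →* Spor.Co1} {r : G → LL → Prop} (h : MT Q z π r)
    {k : G} (hs : r (k * z * k⁻¹) (E8 (pt 0))) : IsSimpleGroup G := by
  refine h.lq.simple_of_le (h.lq.large_of_conj (h.r_mem hs) (h.conj_of_type4 hs (norm_e8 _)).2)
    (le_antisymm h.lq.le_oP h.oP_le) ?_
  have hN : (normalClosure ({z} : Set G)).Normal := inferInstance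
  have hz : z ∈ normalClosure ({z} : Set G) := subset_normalClosure rfl
  generalize normalClosure ({z} : Set G) = N at hN hz
  let M : AddSubgroup LL :=
    { carrier := {v | ∃ q ∈ N, r q v}
      zero_mem' := ⟨1, one_mem _, h.r_one⟩
      add_mem' := fun ⟨a, ha, ha'⟩ ⟨b, hb, hb'⟩ => ⟨_, mul_mem ha hb, h.r_mul ha' hb'⟩
      neg_mem' := fun {v} ⟨a, ha, ha'⟩ => ⟨a, ha, h.r_cg ha' (cg_neg v.2)⟩ }
  have hM := irred_LL (M := M) (fun v hv => ⟨1, one_mem _, h.r_zero (one_mem _) hv⟩)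
    (fun g v ⟨a, ha, ha'⟩ => by
      obtain ⟨y, hy, e⟩ := h.exists_lift g
      exact ⟨_, hN.conj_mem a ha y, h.equi hy e ha'⟩)
    ⟨_, hN.conj_mem z hz k, hs⟩ (MT.not_cg_zero (by rw [coe_E8, norm_e8]; norm_num) (norm_e8 _).le)
  have hQ : Q ≤ N := fun q hq => by
    obtain ⟨v, hv⟩ := h.r_ex hq
    obtain ⟨a, ha, ha'⟩ := hM v
    rcases (h.cg_iff ha' hv).1 (Cg.refl _) with rfl | rfl
    · exact ha
    · exact mul_mem ha hz
  have h1 : pmap π N = ⊤ := by
    refine co1_normal ((hN.subgroupOf _).map π h.surj) ?_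
    rw [← (h.frame_main hs).1]
    refine pmap_mono π (inf_le_left.trans fun y hy => ?_)
    obtain ⟨a, ha, rfl⟩ := mem_cj'.1 hy
    exact hN.conj_mem a (hQ ha) k
  intro y hy
  obtain ⟨a, ha, ha', e⟩ := mem_pmap'.1 (h1.ge (mem_top (pel π y)))
  have := hQ (h.ker.le ((pel_eq_iff π hy ha').1 e.symm))
  exact (mul_mem_cancel_right (inv_mem ha)).1 this

/-- the description of the centraliser of `z` -/
structure MD {G : Type*} [Group G] (z : G) (x : LL → G) (π : ↥𝐂[z] →* Spor.Co1) : Prop where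
  z_sq : z * z = 1
  z_ne : z ≠ 1
  x_mem : ∀ v, x v ∈ 𝐂[z]
  x_add : ∀ v w, x (v + w) = x v * x w ∨ x (v + w) = x v * x w * z
  x_comm : ∀ v w : LL, x v * x w = x w * x v ↔ 16 ∣ dotInt (v : ZV) w
  x_z : ∀ v : LL, x v ∈ zpowers z ↔ Cg v 0
  surj : Function.Surjective π
  ker : ∀ y : ↥𝐂[z], π y = 1 ↔ ∃ v, (y : G) = x v ∨ (y : G) = x v * z
  equi : ∀ (y : ↥𝐂[z]) (g : Co0), π y = g → ∀ v, (y : G) * x v * (y : G)⁻¹ = x (g • v) ∨
    (y : G) * x v * (y : G)⁻¹ = x (g • v) * z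
  tri : ∃ s : G, s * z * s⁻¹ = x (E8 (pt 0)) ∨ s * z * s⁻¹ = x (E8 (pt 0)) * z

/-- `q` lies over the class of `v` -/
def RR (z : G) (x : LL → G) (q : G) (v : LL) : Prop := ∃ c ∈ zpowers z, q = x v * c

theorem zp_comm {z y c : G} (hy : y ∈ 𝐂[z]) (hc : c ∈ zpowers z) : y * c = c * y :=
  mem_cent1_iff.1 (mem_cent1_comm.1 (zpowers_le.2 (mem_cent1_comm.1 hy) hc))

namespace MD
variable {z : G} {x : LL → G} {π : ↥𝐂[z] →* Spor.Co1} (h : MD z x π) {q q' y a b : G} {v w : LL}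
include h

theorem or_iff : (a = b ∨ a = b * z) ↔ ∃ c ∈ zpowers z, a = b * c := by
  simp only [mem_zp2 h.z_sq, or_and_right, exists_or, exists_eq_left, mul_one]

omit h in
theorem r_self (v : LL) : RR z x (x v) v := ⟨1, one_mem _, (mul_one _).symm⟩

theorem mem_iff : q ∈ pker π ↔ ∃ v, RR z x q v := by
  rw [mem_pker]
  constructor
  · rintro ⟨h1, h2⟩
    rw [pel_of_mem π h1, h.ker] at h2
    exact h2.imp fun v hv => h.or_iff.1 hv
  · rintro ⟨v, hv⟩
    have h1 : q ∈ 𝐂[z] := by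
      obtain ⟨c, hc, rfl⟩ := hv
      exact mul_mem (h.x_mem v) (zpowers_le.2 (self_mem_cent1 z) hc)
    exact ⟨h1, by rw [pel_of_mem π h1, h.ker]; exact ⟨v, h.or_iff.2 hv⟩⟩

theorem r_mul (h1 : RR z x q v) (h2 : RR z x q' w) : RR z x (q * q') (v + w) := by
  obtain ⟨c, hc, rfl⟩ := h1
  obtain ⟨d, hd, rfl⟩ := h2
  obtain ⟨e, he, k⟩ := h.or_iff.1 (h.x_add v w)
  refine ⟨e⁻¹ * (c * d), mul_mem (inv_mem he) (mul_mem hc hd), ?_⟩
  rw [k, mul_assoc (x v), ← mul_assoc c, ← zp_comm (h.x_mem w) hc]; group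

theorem r_iff (h1 : RR z x q v) : q ∈ zpowers z ↔ Cg v 0 := by
  obtain ⟨c, hc, rfl⟩ := h1
  rw [mul_mem_cancel_right hc, h.x_z]

theorem r_zero (h1 : q ∈ zpowers z) (h2 : Cg v 0) : RR z x q v :=
  ⟨(x v)⁻¹ * q, mul_mem (inv_mem ((h.x_z v).2 h2)) h1, by group⟩

theorem r_equi {g : Co0} (hy : y ∈ 𝐂[z]) (e : pel π y = g) (h1 : RR z x q v) : RR z x (y * q * y⁻¹) (g • v) := by
  obtain ⟨c, hc, rfl⟩ := h1
  obtain ⟨d, hd, k⟩ := h.or_iff.1 (h.equi ⟨y, hy⟩ g (by rw [← e, pel_of_mem π hy]) v)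
  refine ⟨d * c, mul_mem hd hc, ?_⟩
  replace k : y * x v * y⁻¹ = _ := k
  rw [← mul_assoc _ d, ← k, ← mul_assoc, mul_assoc _ c, ← zp_comm (inv_mem hy) hc]; group

theorem sq_mem (h1 : RR z x q v) : q * q ∈ zpowers z := (h.r_iff (h.r_mul h1 h1)).2 (cg_add_self v.2)

theorem r_inv (h1 : RR z x q v) : RR z x q⁻¹ v := by
  have := h.r_mul h1 (h.r_zero (v := 0) (inv_mem (h.sq_mem h1)) (Cg.refl _))
  simpa using this

theorem cg_of (h1 : RR z x q v) (h2 : RR z x q w) : Cg v w :=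
  (cg_iff_add w.2).2 ((h.r_iff (h.r_mul h1 (h.r_inv h2))).1 (by simp))

theorem comm_iff (h1 : RR z x q v) (h2 : RR z x q' w) : q * q' = q' * q ↔ 16 ∣ dotInt (v : ZV) w := by
  obtain ⟨c, hc, rfl⟩ := h1
  obtain ⟨d, hd, rfl⟩ := h2
  have hz := zpowers_le.2 (self_mem_cent1 z)
  rw [← h.x_comm, mul_assoc (x v), ← mul_assoc c, ← zp_comm (h.x_mem w) hc, mul_assoc (x w) d, ← mul_assoc d,
    ← zp_comm (h.x_mem v) hd, mul_assoc (x w), mul_assoc (x v) d, ← zp_comm (hz hc) hd, ← mul_assoc, ← mul_assoc,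
    ← mul_assoc, ← mul_assoc, mul_left_inj, mul_left_inj]

theorem z_mem : zpowers z ≤ pker π := fun _ hc => h.mem_iff.2 ⟨0, h.r_zero hc (Cg.refl _)⟩

theorem cen : 𝐙(pker π) = zpowers z := by
  refine le_antisymm (fun q hq => ?_) (le_inf h.z_mem fun c hc => mem_cent_iff.2 fun a ha =>
    zp_comm (pker_le_dom π ha) hc)
  obtain ⟨v, hv⟩ := h.mem_iff.1 hq.1
  exact (h.r_iff hv).2 (cg_of_dot fun w => (h.comm_iff hv (r_self w)).1
    (mem_cent_iff'.1 hq.2 _ (h.mem_iff.2 ⟨w, r_self w⟩)))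

theorem not_ab : ¬ IsMulCommutative (pker π) := fun k =>
  not_dvd_v0 ((h.x_comm _ _).1 (abelian_iff'.1 k _ (h.mem_iff.2 ⟨_, r_self _⟩) _ (h.mem_iff.2 ⟨_, r_self _⟩)))

variable [Finite G]

theorem ez : EZ (pker π) z := by
  have h1 : ∀ q ∈ pker π, q ^ 2 ∈ zpowers z := fun q hq => by
    obtain ⟨v, hv⟩ := h.mem_iff.1 hq
    rw [pow_two]; exact h.sq_mem hv
  refine ⟨extraspecial_of_le_center (isPGroup_of_forall fun q hq => ⟨2, ?_⟩) h.not_ab ?_ ?_, h.cen⟩
  · rw [show (2 : ℕ) ^ 2 = 2 * 2 by norm_num, pow_mul]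
    rcases (mem_zp2 h.z_sq).1 (h1 q hq) with e | e <;> rw [e]
    · exact one_pow _
    · rw [pow_two, h.z_sq]
  · rw [h.cen]
    refine phi_le_of_der_of_pow (p := 2) (comm_le_iff.2 fun a ha b hb => ?_) h1
    obtain ⟨v, hv⟩ := h.mem_iff.1 ha
    obtain ⟨w, hw⟩ := h.mem_iff.1 hb
    refine (h.r_iff (h.r_mul (h.r_mul (h.r_mul hv hw) (h.r_inv hv)) (h.r_inv hw))).2 ?_
    rw [add_assoc]
    exact cg_add_self (v + w).2
  · rw [h.cen, card_zp2 (orderOf_eq_prime (by rw [pow_two, h.z_sq]) h.z_ne)]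

theorem lq : LQ (pker π) z := by
  refine ⟨h.ez, fun y hy => ?_, (pker_normalIn π).2⟩
  have h1 : y ∈ 𝐂[z] := mem_cent1_iff.2 (mem_cent_iff'.1 hy z (h.z_mem (mem_zpowers z)))
  obtain ⟨g, e⟩ := MT.exists_co π y
  refine mem_pker.2 ⟨h1, ?_⟩
  rw [e, QuotientGroup.eq_one_iff]
  refine Cfsg.Agent.S5392.result.1 g fun v => ?_
  have k := h.r_equi h1 e (r_self v)
  rw [mem_cent_iff'.1 hy _ (h.mem_iff.2 ⟨v, r_self v⟩), mul_inv_cancel_right] at k
  obtain ⟨w, hw, e2⟩ := h.cg_of k (r_self v)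
  exact ⟨⟨w, hw⟩, by rw [e2]; rfl⟩

omit [Finite G] in
theorem x_ker (v : LL) : (⟨x v, h.x_mem v⟩ : ↥𝐂[z]) ∈ π.ker := (h.ker _).2 ⟨v, Or.inl rfl⟩

/-- the module isomorphism -/
def psi (v : LL) : π.ker ⧸ center π.ker := QuotientGroup.mk ⟨⟨x v, h.x_mem v⟩, h.x_ker v⟩

theorem psi_eq {t : π.ker} : h.psi v = QuotientGroup.mk t ↔ RR z x t.1.1 v := by
  rw [psi, QuotientGroup.eq, mem_center_iff_zp (Q := π.ker) h.ez]
  exact ⟨fun k => ⟨_, k, (mul_inv_cancel_left _ _).symm⟩, fun ⟨c, hc, e⟩ => by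
    show (x v)⁻¹ * t.1.1 ∈ _
    rwa [e, inv_mul_cancel_left]⟩

theorem iso : IsLeechModTwoIso π.ker (QuotientGroup.quotientKerEquivOfSurjective π h.surj) h.psi := by
  refine ⟨fun v w => h.psi_eq.2 (h.r_mul (r_self v) (r_self w)), fun t => ?_, fun v => ?_, fun y g e v t k => ?_⟩
  · obtain ⟨t, rfl⟩ := QuotientGroup.mk_surjective t
    obtain ⟨v, hv⟩ := h.mem_iff.1 (⟨t.1, t.2, rfl⟩ : t.1.1 ∈ pker π)
    exact ⟨v, h.psi_eq.2 hv⟩
  · rw [psi, QuotientGroup.eq_one_iff, mem_center_iff_zp (Q := π.ker) h.ez, ← cg_zero_iff, ← h.x_z]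
  · exact h.psi_eq.2 (h.r_equi y.2 ((pel_coe π y).trans e.symm) (h.psi_eq.1 k))

theorem card : Nat.card (pker π) = 2 ^ 25 := by
  obtain ⟨h1, h2, h3, -⟩ := h.iso
  let f : Multiplicative LL →* π.ker ⧸ center π.ker := MonoidHom.mk' (fun v => h.psi v.toAdd) fun a b => h1 _ _
  have e1 : f.ker = AddSubgroup.toSubgroup (nsmulAddMonoidHom (α := LL) 2).range := by
    ext v
    refine (h3 v.toAdd).trans (exists_congr fun w => ?_)
    rw [nsmulAddMonoidHom_apply, two_nsmul, eq_comm]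
  have e2 := index_ker f
  rw [e1, AddSubgroup.index_toSubgroup, index_two, MonoidHom.range_eq_top.2 (fun t => h2 t), card_top] at e2
  have e3 : Nat.card (center π.ker) = 2 := (isExtraspecial_iff.2 (extraspecial_of_map (subtype_injective _) h.ez.es)).2
  rw [show pker π = π.ker.map (𝐂[z]).subtype from rfl, card_map_subtype, card_eq_card_quotient_mul_card_subgroup (center π.ker), ← e2, e3]
  norm_num

theorem mt {s : G} (hs : RR z x (s * z * s⁻¹) (E8 (pt 0))) : MT (pker π) z π (RR z x) :=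
  ⟨h.lq, h.card, h.surj, rfl, fun k => h.mem_iff.2 ⟨_, k⟩, h.mem_iff.1, fun v => ⟨_, r_self v⟩, h.r_mul, h.r_iff,
    h.r_zero, h.r_equi, s, h.mem_iff.2 ⟨_, hs⟩, fun e => MT.not_cg_zero (by rw [coe_E8, norm_e8]; norm_num)
      (norm_e8 _).le ((h.r_iff hs).1 (e.symm ▸ mem_zpowers z))⟩

theorem main : IsSimpleGroup G ∧ ¬ IsMulCommutative G ∧ IsGroupOfMonsterType G := by
  obtain ⟨s, hs⟩ := h.tri
  have hs := h.or_iff.1 hs
  have m := h.mt hs
  refine ⟨MT_simple m hs, fun k => h.not_ab (abelian_iff'.2 fun a _ b _ => k.is_comm.comm a b), z, π.ker,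
    inferInstance, ?_, _, _, h.iso⟩
  rw [← pker_subgroupOf]
  exact setting_of_lq (w := 12) h.lq m.oP_le h.card m.ex

end MD

end CA.Gr
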