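import Cfsg.Agent.Lib.Gr.Cent0
import Cfsg.Agent.Lib.Gr.Fin

/-!
The centraliser of the central involution in the automorphism group of the algebra.
-/

set_option autoImplicit false

namespace CA.Gr
open Cfsg CA.Gol CA.Co CA Matrix
open scoped Kronecker

/-- the three parts of the algebra -/
def iS (A : MG) (h : Aᵀ = A) : BB := ⟨(A, 0, 0), h, zero_mem _⟩
def iF (f : MI) (h : f ∈ B0) : BB := ⟨(0, f, 0), rfl, h⟩
def iU : (II → FF) →ₗ[FF] BB where
  toFun u := ⟨(0, 0, u), rfl, zero_mem _⟩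
  map_add' u v := Subtype.ext (by simp)
  map_smul' c u := Subtype.ext (by simp)
def iR (r : LL) : BB := iS (Rk r) (Rk_symm r)

theorem BB_ext {a b : BB} (h1 : a.1.1 = b.1.1) (h2 : a.1.2.1 = b.1.2.1) (h3 : a.1.2.2 = b.1.2.2) : a = b :=
  Subtype.ext (Prod.ext h1 (Prod.ext h2 h3))
theorem GG_inv (y : GG) (a : BB) : y.1 (y⁻¹.1 a) = a := by rw [← GG_mul, mul_inv_cancel]; rfl
theorem eq_zero_of_neg {M : Type*} [AddCommGroup M] [Module FF M] {a : M} (h : a = -a) : a = 0 :=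
  (smul_eq_zero.1 (show (2 : FF) • a = 0 by rw [two_smul]; exact eq_neg_iff_add_eq_zero.1 h)).resolve_left (ff_ne 2)

theorem gH_add₂ (A : MG) (f f' g : MI) : gH A (f + f') g = gH A f g + gH A f' g := by
  simp only [gH, mul_add, add_mul, trace_add]
theorem gH_smul₂ (A : MG) (c : FF) (f g : MI) : gH A (c • f) g = c * gH A f g := by
  simp only [gH, mul_smul_comm, smul_mul_assoc, trace_smul, smul_eq_mul, mul_left_comm c]
theorem gH_smul₃ (A : MG) (c : FF) (f g : MI) : gH A f (c • g) = c * gH A f g := by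
  simp only [gH, mul_smul_comm, trace_smul, smul_eq_mul, mul_left_comm c]
theorem gH_swap {A : MG} {f g : MI} (hA : Aᵀ = A) (hf : f ∈ B0) (hg : g ∈ B0) : gH A f g = gH A g f := by
  rw [gH, gH, trace_swap (Hat_symm hA) (B0_symm hf) (B0_symm hg)]
theorem gH_eig (A : MG) {f : MI} (hf : f ∈ B0) {s : LL} (hs : Mn s) :
    32 * gH A f (NN s) = qf A s * gH 1 f (NN s) :=
  B0_ind (P := fun f => 32 * gH A f (NN s) = qf A s * gH 1 f (NN s)) (fun r hr => by
    by_cases e : Cg (r + s : LL) 0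
    · rw [show NN r = NN s by rcases (hr.cg_iff hs).1 e with rfl | rfl; exacts [rfl, (NN_neg _).symm],
        gH_self _ hs, gH_one_self hs]
      ring
    · rw [gH_ne _ e, gH_ne _ e, mul_zero, mul_zero]) (by simp)
    (fun f g h k => by rw [gH_add₂, gH_add₂, mul_add, mul_add, h, k])
    (fun c f h => by rw [gH_smul₂, gH_smul₂, mul_left_comm, h, mul_left_comm]) hf

theorem trace_Lo_mul (A : MG) {f : MI} (hf : f ∈ B0) : (Lo A * f).trace = 0 :=
  B0_ind (P := fun f => (Lo A * f).trace = 0) (fun r hr => by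
    rw [Lo, NN, ← mul_kronecker_mul, trace_kronecker, Matrix.one_mul, trace_xm_of_not hr.not_cg, mul_zero]) (by simp)
    (fun f g h k => by rw [mul_add, trace_add, h, k, add_zero])
    (fun c f h => by rw [mul_smul_comm, trace_smul, h, smul_zero]) hf

theorem kap (a b : BB) : 2 * ((Lo a.1.1 + a.1.2.1) * (Lo b.1.1 + b.1.2.1)).trace = nC * (2048 * (a.1.1 * b.1.1).trace +
    1280 * (a.1.1.trace * b.1.1.trace) + 9 * gH 1 a.1.2.1 b.1.2.1) := by
  have h1 : Hat 1 = (48 : FF) • 1 := by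
    rw [Hat, trace_one, card_golayPt, ← sub_smul, smul_kronecker, one_kronecker_one]; rfl
  have h2 := nC_ne
  have h3 := ff_ne 216
  rw [mul_add, add_mul, add_mul, trace_add, trace_add, trace_add, trace_mul_comm a.1.2.1, trace_Lo_mul _ a.2.2,
    trace_Lo_mul _ b.2.2, Lo, Lo, ← mul_kronecker_mul, trace_kronecker, gH, h1]
  simp only [mul_add, add_mul, smul_mul_assoc, mul_smul_comm, Matrix.one_mul, Matrix.mul_one, trace_add, trace_smul,
    trace_one, card_golayPt, ← nC.eq_1, smul_eq_mul]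
  field_simp
  push_cast
  ring

theorem ga_U (a : AA) (u v : II → FF) : ga a (iU u) (iU v) = u ⬝ᵥ (Lo a.1 + a.2.1) *ᵥ v := by
  simp [ga, iU, gU]
theorem ga_F (A : MG) (hA : Aᵀ = A) {f g : MI} (hf : f ∈ B0) (hg : g ∈ B0) :
    ga (iS A hA) (iF f hf) (iF g hg) = gH A f g := by simp [ga, iS, iF]
theorem ga_R (r s t : LL) : ga (iR r) (iR s) (iR t) = 256 * (Rk r * Rk s * Rk t).trace := by
  simp only [ga, iR, iS, gH_zero₂, gF_zero₁, gU_zero₂, gA, add_zero,
    trace_swap (Rk_symm r) (Rk_symm t) (Rk_symm s)]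
  ring

/-- the matrix on the part of dimension 98304 -/
noncomputable def pU (y : GG) : MI := LinearMap.toMatrix' ((LinearMap.snd FF _ _).comp ((LinearMap.snd FF _ _).comp
  (BB.subtype.comp (y.1.toLinearMap.comp iU))))
theorem pU_mulVec (y : GG) (u : II → FF) : pU y *ᵥ u = (y.1 (iU u)).1.2.2 := LinearMap.toMatrix'_mulVec _ _

section cent
variable {y : GG} (hy : y ∈ 𝐂[zG])
include hy

theorem z_comm (a : BB) : y.1 (zG.1 a) = zG.1 (y.1 a) := by rw [← GG_mul, mem_cent1_iff.1 hy, GG_mul]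

theorem c_plus {a : BB} (ha : a.1.2.2 = 0) : (y.1 a).1.2.2 = 0 := by
  have h1 : zG.1 a = a := Subtype.ext (by rw [zG_apply, ha, neg_zero, ← ha])
  have := congrArg (fun b : BB => b.1.2.2) (z_comm hy a)
  simp only [h1, zG_apply] at this
  exact eq_zero_of_neg this

theorem c_minus (u : II → FF) : y.1 (iU u) = iU (pU y *ᵥ u) := by
  have h1 : zG.1 (iU u) = -iU u := Subtype.ext (by rw [zG_apply]; simp [iU])
  have := congrArg Subtype.val (z_comm hy (iU u))
  rw [h1, map_neg, zG_apply] at this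
  exact BB_ext (eq_zero_of_neg (congrArg (·.1) this).symm) (eq_zero_of_neg (congrArg (·.2.1) this).symm)
    (pU_mulVec y u).symm

theorem c_form (a : BB) : (pU y)ᵀ * (Lo (y.1 a).1.1 + (y.1 a).1.2.1) * pU y = Lo a.1.1 + a.1.2.1 :=
  mat_ext fun u v => by
    rw [← ga_U, ← GG_ga y, c_minus hy, c_minus hy, ga_U, Matrix.mul_assoc, ← mulVec_mulVec, dotProduct_mulVec u,
      vecMul_transpose, mulVec_mulVec]

theorem c_orth : (pU y)ᵀ * pU y = 1 := mat_ext fun u v => by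
  have := GG_Id y (iU u) (iU v)
  rw [c_minus hy, c_minus hy, ga_Id, ga_Id] at this
  simp only [iU, LinearMap.coe_mk, AddHom.coe_mk, trace_zero, mul_zero, gH_zero₂, zero_add,
    mul_right_inj' (ff_ne 128)] at this
  rw [one_mulVec, ← this, ← mulVec_mulVec, dotProduct_mulVec u, vecMul_transpose]

theorem c_conj (a : BB) : Lo (y.1 a).1.1 + (y.1 a).1.2.1 = pU y * (Lo a.1.1 + a.1.2.1) * (pU y)ᵀ := by
  rw [← c_form hy a, ← Matrix.mul_assoc, ← Matrix.mul_assoc, orth_comm (c_orth hy), Matrix.one_mul, Matrix.mul_assoc,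
    orth_comm (c_orth hy), Matrix.mul_one]

omit hy in
theorem c_tr (y : GG) (a : BB) : (y.1 a).1.1.trace = a.1.1.trace := by
  have := GG_Id y ⟨Id, Id_mem⟩ a
  rw [y.2.2, ga_Id, ga_Id] at this
  simpa [Id, ff_ne 256] using this

theorem c_tr2 {a : BB} (ha : a.1.2.2 = 0) (b : BB) : ((y.1 a).1.1 * (y.1 b).1.1).trace = (a.1.1 * b.1.1).trace := by
  have h1 := kap (y.1 a) (y.1 b)
  have h2 := GG_Id y a b
  rw [ga_Id, ga_Id, ha, c_plus hy ha, zero_dotProduct, zero_dotProduct] at h2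
  have h3 := trace_conj3 (c_orth hy) (Lo a.1.1 + a.1.2.1) (Lo b.1.1 + b.1.2.1) 1
  rw [Matrix.mul_one, Matrix.mul_one, orth_comm (c_orth hy), Matrix.mul_one] at h3
  rw [c_conj hy, c_conj hy, h3, kap, mul_right_inj' nC_ne, c_tr, c_tr] at h1
  exact mul_left_cancel₀ (ff_ne 256) (by linear_combination h1 + 9 * h2)

theorem c_F (f : MI) (hf : f ∈ B0) : ∃ g hg, y.1 (iF f hf) = iF g hg :=
  ⟨_, (y.1 (iF f hf)).2.2, BB_ext (sym_eq_zero (y.1 _).2.1 fun i j => by
    have := c_tr2 hy (a := iF f hf) rfl (y⁻¹.1 (iS _ (SS_symm i j)))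
    rw [GG_inv] at this
    exact this.trans (by simp [iF])) rfl (c_plus hy rfl)⟩

theorem c_S (A : MG) (hA : Aᵀ = A) : ∃ B hB, y.1 (iS A hA) = iS B hB :=
  ⟨_, (y.1 (iS A hA)).2.1, BB_ext rfl (B0_eq_zero (y.1 _).2.2 fun r hr => by
    obtain ⟨g, hg, e⟩ := c_F (inv_mem hy) _ (NN_mem hr)
    have := GG_Id y (iS A hA) (y⁻¹.1 (iF _ (NN_mem hr)))
    rw [GG_inv, e, ga_Id, ga_Id] at this
    simpa [iF, iS] using this) (c_plus hy rfl)⟩

theorem c_wt {r : LL} (hr : Mn r) : ∃ s, ∃ hs : Mn s, y.1 (iR r) = iR s ∧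
    ∃ t, y.1 (iF _ (NN_mem hr)) = sn t • iF _ (NN_mem hs) := by
  obtain ⟨f, hf, e⟩ := c_F hy _ (NN_mem hr)
  have h0 : ∀ {g g' : MI} (hg : g ∈ B0) (hg' : g' ∈ B0), y.1 (iF g hg) = iF g' hg' → gH 1 f g' = gH 1 (NN r) g :=
    fun hg hg' k => by
      have := GG_Id y (iF _ (NN_mem hr)) (iF _ hg)
      rw [e, k, ga_Id, ga_Id] at this
      simpa [iF] using this
  have h1 : ∀ s, Mn s → gH 1 f (NN s) ≠ 0 → y.1 (iR r) = iR s := fun s hs h => by
    obtain ⟨R, hR, e1⟩ := c_S hy _ (Rk_symm r)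
    obtain ⟨g, hg, e2⟩ := c_F (inv_mem hy) _ (NN_mem hs)
    replace e2 : y.1 (iF g hg) = iF _ (NN_mem hs) := by rw [← e2, GG_inv]
    refine e1.trans (BB_ext (sub_eq_zero.1 (sym_eq_zero (by simp [iS, iR, hR, Rk_symm]) fun i j => ?_)) rfl rfl)
    obtain ⟨A, hA, e3⟩ := c_S (inv_mem hy) _ (SS_symm i j)
    replace e3 : y.1 (iS A hA) = iS _ (SS_symm i j) := by rw [← e3, GG_inv]
    have k1 := GG_ga y (iS A hA) (iF _ (NN_mem hr)) (iF g hg)
    rw [e, e2, e3, ga_F, ga_F, gH_swap hA (NN_mem hr) hg] at k1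
    have k2 := gH_eig (SS i j) hf hs
    rw [k1, gH_eig A hg hr, gH_swap transpose_one hg (NN_mem hr), ← h0 hg _ e2, mul_left_inj' h] at k2
    have k3 := c_tr2 hy (a := iS A hA) rfl (iR r)
    rw [e3, iR, e1] at k3
    change (SS i j * R).trace = (A * Rk r).trace at k3
    change ((R - Rk s) * SS i j).trace = 0
    rw [trace_mul_comm, mul_sub, trace_sub, k3, trace_mul_Rk, trace_mul_Rk, k2, sub_self]
  have h2 : gH 1 f f = 256 := (h0 _ hf e).trans (gH_one_self hr)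
  obtain ⟨s, hs, h3⟩ : ∃ s, Mn s ∧ gH 1 f (NN s) ≠ 0 := by
    by_contra hc
    push Not at hc
    rw [B0_eq_zero hf hc, gH_zero₂] at h2
    exact absurd h2.symm (ff_ne 256)
  have h4 : f = ((256 : FF)⁻¹ * gH 1 f (NN s)) • NN s := by
    refine eq_of_sub_eq_zero (B0_eq_zero (sub_mem hf (B0.smul_mem _ (NN_mem hs))) fun t ht => ?_)
    rw [sub_eq_add_neg, ← neg_smul, gH_add₂, gH_smul₂]
    by_cases k : Cg (s + t : LL) 0
    · rw [show NN t = NN s by rcases (hs.cg_iff ht).1 k with rfl | rfl; exacts [rfl, NN_neg _], gH_one_self hs]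
      have := ff_ne 256
      field_simp
      ring
    · rw [gH_ne _ k, mul_zero, add_zero]
      by_contra k'
      exact k ((hs.cg_iff ht).2 (Rk_inj hs ht (congrArg (·.1.1) ((h1 s hs h3).symm.trans (h1 t ht k')))))
  generalize (256 : FF)⁻¹ * gH 1 f (NN s) = c at h4
  subst h4
  rw [gH_smul₂, gH_smul₃, gH_one_self hs, ← mul_assoc, mul_left_eq_self₀, or_iff_left (ff_ne 256)] at h2
  obtain ⟨t, rfl⟩ := exists_sn h2
  exact ⟨s, hs, h1 s hs h3, t, e.trans (BB_ext (smul_zero _).symm rfl (smul_zero _).symm)⟩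

theorem c_fix (h : ∀ r, Mn r → y.1 (iR r) = iR r) : ∃ k, ∃ hL : Lift 1 k, y = hL.act := by
  have h1 : ∀ A hA, y.1 (iS A hA) = iS A hA := fun A hA => by
    obtain ⟨B, hB, e⟩ := c_S hy A hA
    refine e.trans (BB_ext (sub_eq_zero.1 (qf_zero (by simp [iS, hA, hB]) fun r hr => ?_)) rfl rfl)
    have := c_tr2 hy (a := iS A hA) rfl (iR r)
    rw [e, h r hr] at this
    rw [← trace_mul_Rk, sub_mul, trace_sub]
    exact sub_eq_zero.2 this
  have h2 : ∀ A, Aᵀ = A → pU y * Lo A * (pU y)ᵀ = Lo A := fun A hA => by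
    have := c_conj hy (iS A hA)
    rw [h1] at this
    simpa [iS] using this.symm
  obtain ⟨k, hk⟩ := kron_of_comm (P := pU y) fun i j => by
    have := congrArg (· * pU y) (h2 _ (SS_symm i j))
    simp only [Matrix.mul_assoc, c_orth hy, Matrix.mul_one, Lo, add_kronecker, smul_kronecker, one_kronecker_one, mul_add,
      add_mul, mul_smul_comm, smul_mul_assoc, Matrix.one_mul, add_left_inj] at this
    exact (smul_right_injective _ (ff_ne 32) this).symm
  have h3 : kᵀ * k = 1 := by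
    have := c_orth hy
    rw [hk, ← kroneckerMap_transpose, ← mul_kronecker_mul, transpose_one, Matrix.one_mul, ← one_kronecker_one] at this
    exact kron_cancel one_ne_zero this
  let M : AddSubgroup LL :=
    { carrier := {v | ∃ a, k * xm v * kᵀ = sn a • xm v}
      zero_mem' := ⟨0, by rw [xm_zero, Matrix.mul_one, orth_comm h3, sn_zero, one_smul]⟩
      add_mem' := fun {v w} ⟨a, ha⟩ ⟨b, hb⟩ => ⟨a + b, by
        have e : xm (v + w) = sn (ph v (ee w)) • (xm v * xm w) := by rw [xm_mul, smul_smul, sn_mul_self, one_smul]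
        rw [e, smul_comm, sn_add, ← smul_mul_smul_comm, ← ha, ← hb, mul_smul_comm, smul_mul_assoc]
        simp only [Matrix.mul_assoc, ← Matrix.mul_assoc kᵀ, h3, Matrix.one_mul]⟩
      neg_mem' := fun {v} ha => by
        show ∃ a, _
        rw [xm_neg]; exact ha }
  have hL : Lift 1 k := ⟨h3, fun v => by
    rw [one_smul]
    refine mn_ind (M := M) (fun r hr => ?_) v
    obtain ⟨s, hs, e1, t, e2⟩ := c_wt hy hr
    have e3 := c_conj hy (iF _ (NN_mem hr))
    rw [e2] at e3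
    change Lo (sn t • 0) + sn t • NN s = _ * (Lo 0 + NN r) * _ at e3
    rw [smul_zero, Lo_zero, zero_add, zero_add, NN_of_Rk hr hs (congrArg (·.1.1) ((h r hr).symm.trans e1)), hk, NN,
      ← kroneckerMap_transpose, ← mul_kronecker_mul, ← mul_kronecker_mul, transpose_one, Matrix.one_mul, Matrix.mul_one,
      ← kronecker_smul] at e3
    exact ⟨t, (kron_cancel (MM_ne hr) e3).symm⟩⟩
  refine ⟨k, hL, GG_ext fun a => ?_⟩
  obtain ⟨g, hg, e⟩ := c_F hy _ a.2.2
  have e1 : y.1 a = iS _ a.2.1 + iF g hg + iU (pU y *ᵥ a.1.2.2) := by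
    rw [← e, ← h1, ← c_minus hy, ← map_add, ← map_add]
    exact congrArg _ (BB_ext (by simp [iS, iF, iU]) (by simp [iS, iF, iU]) (by simp [iS, iF, iU]))
  have e2 := c_conj hy (iF _ a.2.2)
  rw [e] at e2
  change Lo 0 + g = _ * (Lo 0 + a.1.2.1) * _ at e2
  rw [Lo_zero, zero_add, zero_add] at e2
  rw [Lift.act_apply, actA_apply, mg_one, ← hk, ← e2, e1]
  simp [iS, iF, iU]

end cent

theorem act_congr {g g' : Co0} {h h' : MC} (hL : Lift g h) (hL' : Lift g' h') (e1 : g = g') (e2 : h = h') :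
    hL.act = hL'.act := by subst e1 e2; rfl

theorem Lift.act_R {g : Co0} {h : MC} (hL : Lift g h) (r : LL) : hL.act.1 (iR r) = iR (g • r) :=
  Subtype.ext (by rw [Lift.act_apply, actA_apply]; simp [iR, iS, mg_Rk])

theorem Lift.act_mem {g : Co0} {h : MC} (hL : Lift g h) : hL.act ∈ 𝐂[zG] := mem_cent1_iff.2 (by
  rw [zG, ← Lift.act_mul, ← Lift.act_mul]
  exact act_congr _ _ (by simp) (by simp [xm_zero]))

/-- the centraliser of the central involution consists of the lifts -/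
theorem cent_lift (hlift : ∀ g, ∃ h, Lift g h) {y : GG} (hy : y * zG = zG * y) :
    ∃ g h, ∃ hL : Lift g h, y = hL.act := by
  classical
  replace hy : y ∈ 𝐂[zG] := mem_cent1_iff.2 hy
  have h1 : ∀ r, ∃ s, Mn r → Mn s ∧ y.1 (iR r) = iR s := fun r => by
    by_cases hr : Mn r
    · obtain ⟨s, hs, e, -⟩ := c_wt hy hr
      exact ⟨s, fun _ => ⟨hs, e⟩⟩
    · exact ⟨r, fun h => absurd h hr⟩
  choose f hf using h1
  obtain ⟨g, hg⟩ := exists_co f (fun v hv => (hf v hv).1) fun u v w hu hv hw => by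
    have := GG_ga y (iR u) (iR v) (iR w)
    rw [(hf u hu).2, (hf v hv).2, (hf w hw).2, ga_R, ga_R, mul_right_inj' (ff_ne 256)] at this
    exact tri_inj (hf u hu).1 (hf v hv).1 (hf w hw).1 hu hv hw this
  obtain ⟨h, hL⟩ := hlift g
  obtain ⟨k, hK, e⟩ := c_fix (mul_mem (inv_mem hL.act_mem) hy) fun r hr => by
    have : iR (f r) = iR (g • r) := by
      rcases hg r hr with e | e <;> rw [e]
      exact BB_ext (Rk_neg _) rfl rfl
    rw [GG_mul, (hf r hr).2, this, ← hL.act_R, ← GG_mul, inv_mul_cancel]; rfl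
  exact ⟨_, _, hL.mul hK, by rw [hL.act_mul hK, ← e, mul_inv_cancel_left]⟩

/-- `y` is a lift of `g` -/
def Ov (y : GG) (g : Co0) : Prop := ∃ h, ∃ hL : Lift g h, y = hL.act

theorem Ov.mul {y y' : GG} {g g' : Co0} (h : Ov y g) (h' : Ov y' g') : Ov (y * y') (g * g') := by
  obtain ⟨k, hk, rfl⟩ := h
  obtain ⟨l, hl, rfl⟩ := h'
  exact ⟨_, hk.mul hl, (hk.act_mul hl).symm⟩
theorem Ov.mk_eq {y : GG} {g g' : Co0} (h : Ov y g) (h' : Ov y g') : (g : Spor.Co1) = g' := by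
  obtain ⟨k, hk, rfl⟩ := h
  obtain ⟨l, hl, e⟩ := h'
  refine mk_eq_of_mn fun v hv => Rk_inj (hv.smul g) (hv.smul g') ?_
  have := hl.act_R v
  rw [← e, hk.act_R] at this
  exact congrArg (·.1.1) this
theorem Ov.of_mk {y : GG} {g g' : Co0} (h : Ov y g) (e : (g : Spor.Co1) = g') : Ov y g' := by
  rcases mk_eq_iff.1 e with rfl | rfl
  · exact h
  obtain ⟨k, hk, rfl⟩ := h
  have hL : Lift (negC * g) (-k) := ⟨by rw [transpose_neg, neg_mul_neg, hk.1], fun v => by
    rw [mul_smul, negC_smul, xm_neg, transpose_neg, neg_mul, neg_mul_neg]; exact hk.2 v⟩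
  refine ⟨-k, hL, GG_ext fun a => ?_⟩
  have : (-mg g) ⊗ₖ (-k) = mg g ⊗ₖ k := by
    rw [← neg_one_smul FF k, ← neg_one_smul FF (mg g), kronecker_smul, smul_kronecker, smul_smul]; simp
  rw [hk.act_apply, hL.act_apply, actA_apply, actA_apply, mg_mul, mg_negC, neg_mul, Matrix.one_mul, this,
    transpose_neg, neg_mul, neg_mul_neg]

/-- the elements of the extraspecial group with signs -/
noncomputable def ac (t : ZMod 2) (w : LL) : GG := (lift_xm t w).act

theorem ac_mul (t t' : ZMod 2) (v w : LL) : ac t v * ac t' w = ac (t + t' + ph v (ee w)) (v + w) := by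
  rw [ac, ac, ← Lift.act_mul]
  exact act_congr _ _ (mul_one _) (by rw [smul_mul_smul_comm, xm_mul, smul_smul, sn_add, sn_add])
theorem ac_z (t : ZMod 2) (v : LL) : ac t v * zG = ac (t + 1) v := by
  rw [show zG = ac 1 0 from rfl, ac_mul, map_zero, map_zero, add_zero, add_zero]
theorem ac_eq_iff {t t' : ZMod 2} {v w : LL} : ac t v = ac t' w ↔ sn t • xm v = sn t' • xm w := by
  refine ⟨fun e => kron_cancel (one_ne_zero (α := MG)) (mat_ext fun a u => ?_), act_congr _ _ rfl⟩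
  have := congrArg (fun y : GG => a ⬝ᵥ (y.1 (iU u)).1.2.2) e
  simp only [ac, Lift.act_apply, actA_apply, mg_one] at this
  exact this
theorem ac_zero : ac 0 0 = 1 := GG_ext fun a => by
  rw [ac, Lift.act_apply, actA_apply]; simp [mg_one, xm_zero]
theorem xm_ne (v : LL) : xm v ≠ 0 := fun e => by simpa [e] using xm_orth v
theorem ac_inj {t t' : ZMod 2} {v : LL} : ac t v = ac t' v ↔ t = t' :=
  ⟨fun e => sn_inj (smul_left_injective FF (xm_ne v) (ac_eq_iff.1 e)), fun e => e ▸ rfl⟩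
theorem ac_or (t : ZMod 2) (v : LL) : ac t v = xG v ∨ ac t v = xG v * zG := by
  rcases zmod2_cases t with rfl | rfl
  exacts [Or.inl rfl, Or.inr (ac_z 0 v).symm]
theorem zG_sq : zG * zG = 1 := (ac_z 1 0).trans ac_zero

/-- the structure of the centraliser -/
theorem md (hlift : ∀ g, ∃ h, Lift g h)
    (hs : ∃ s : GG, s * zG * s⁻¹ = xG (E8 (pt 0)) ∨ s * zG * s⁻¹ = xG (E8 (pt 0)) * zG) : ∃ π, MD zG xG π := by
  have h1 : ∀ y : ↥𝐂[zG], ∃ g, Ov y g := fun y => cent_lift hlift (mem_cent1_iff.1 y.2)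
  choose γ hγ using h1
  let π : ↥𝐂[zG] →* Spor.Co1 := MonoidHom.mk' (fun y => (γ y : Spor.Co1)) fun a b =>
    (hγ (a * b)).mk_eq ((hγ a).mul (hγ b))
  have h2 : ∀ (y : ↥𝐂[zG]) (g : Co0), π y = g ↔ Ov y g := fun y g => ⟨(hγ y).of_mk, (hγ y).mk_eq⟩
  refine ⟨π, zG_sq, fun e => one_ne_zero (ac_inj.1 (e.trans ac_zero.symm)), fun v => Lift.act_mem _, fun v w => ?_,
    fun v w => ?_, fun v => ?_, fun g => ?_, fun y => ?_, fun y g e v => ?_, hs⟩
  · rw [show xG v * xG w = _ from ac_mul 0 0 v w, ac_z, show xG (v + w) = ac 0 (v + w) from rfl, ac_inj, ac_inj]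
    generalize ph v (ee w) = a
    revert a; decide
  · rw [show xG v * xG w = _ from ac_mul 0 0 v w, show xG w * xG v = _ from ac_mul 0 0 w v, add_comm w, ac_inj,
      ← dp_eq_zero, ← ph_polar]
    generalize ph v (ee w) = a
    generalize ph w (ee v) = b
    revert a b; decide
  · rw [Ex2.mem_zp2 zG_sq, ← ac_zero]
    refine ⟨fun e => by_contra fun k => ?_, fun k => Or.inl (ac_eq_iff.2 (by rw [xm_cg (w := 0) k]))⟩
    obtain ⟨t, ht⟩ : ∃ t, ac 0 v = ac t 0 := e.elim (⟨0, ·⟩) (⟨1, ·⟩)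
    have := congrArg trace (ac_eq_iff.1 ht)
    rw [trace_smul, trace_smul, trace_xm_of_not k, trace_xm_of (Cg.refl _), smul_zero] at this
    exact mul_ne_zero (sn_ne_zero t) nC_ne this.symm
  · obtain ⟨g, rfl⟩ := QuotientGroup.mk_surjective g
    obtain ⟨h, hL⟩ := hlift g
    exact ⟨⟨_, hL.act_mem⟩, (h2 _ g).2 ⟨h, hL, rfl⟩⟩
  · refine (h2 y 1).trans ⟨fun ⟨k, hk, e⟩ => ?_, fun ⟨v, e⟩ => ?_⟩
    · obtain ⟨t, w, rfl⟩ := lift_one hk
      exact ⟨w, e ▸ ac_or t w⟩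
    · rcases e with e | e
      exacts [⟨_, lift_xm 0 v, e⟩, ⟨_, lift_xm (0 + 1) v, e.trans (ac_z 0 v)⟩]
  · obtain ⟨k, hk, e⟩ := (h2 y g).1 e
    obtain ⟨a, ha⟩ := hk.comm v
    have : y.1 * xG v = ac a (g • v) * y.1 := by
      rw [e, xG, ac, ← Lift.act_mul, ← Lift.act_mul]
      exact act_congr _ _ (by simp) (by rw [sn_zero, one_smul, ha, smul_mul_assoc])
    rw [this, mul_inv_cancel_right]
    exact ac_or a _

/-- the theorem from the triality element -/
theorem monster_of_tri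
    (hs : ∃ s : GG, s * zG * s⁻¹ = xG (E8 (pt 0)) ∨ s * zG * s⁻¹ = xG (E8 (pt 0)) * zG) :
    IsSimpleGroup GG ∧ ¬ IsMulCommutative GG ∧ IsGroupOfMonsterType GG :=
  let ⟨_, h⟩ := md exists_lift hs
  h.main

end CA.Gr
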