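import Cfsg.Agent.Lib.Gr.Alg

/-!
Every isometry of the Leech lattice modulo 2 is induced by an orthogonal matrix of degree 4096.
-/

set_option autoImplicit false

namespace CA.Gr
open Cfsg CA.Gol CA.Co Matrix

/-- `h` is an orthogonal matrix inducing `f` on the extraspecial group -/
def LiftF (f : LL → LL) (h : MC) : Prop := hᵀ * h = 1 ∧ ∀ v : LL, ∃ a, h * xm v * hᵀ = sn a • xm (f v)

theorem LiftF.mul {f f' : LL → LL} {h h' : MC} (hL : LiftF f h) (hL' : LiftF f' h') :
    LiftF (fun v => f (f' v)) (h * h') :=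
  ⟨by rw [transpose_mul, Matrix.mul_assoc, ← Matrix.mul_assoc hᵀ, hL.1, Matrix.one_mul, hL'.1], fun v => by
    obtain ⟨a, ha⟩ := hL'.2 v
    obtain ⟨b, hb⟩ := hL.2 (f' v)
    refine ⟨a + b, ?_⟩
    rw [transpose_mul, Matrix.mul_assoc h, ← Matrix.mul_assoc _ h'ᵀ, Matrix.mul_assoc h, ha, mul_smul_comm,
      smul_mul_assoc, hb, smul_smul, sn_add]⟩

theorem LiftF.congr {f f' : LL → LL} {h : MC} (hL : LiftF f h) (e : ∀ v, Cg (f v) (f' v)) : LiftF f' h :=
  ⟨hL.1, fun v => by rw [← xm_cg (e v)]; exact hL.2 v⟩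

theorem qq_cg {v w : LL} (h : Cg v w) : qq v = qq w := by rw [← ph_self, ← ph_self, ee_cg h, ph_cg h]

theorem dp_of_ee {v w : LL} (hv : ee v = 0) : dp v w = ph v (ee w) := by
  rw [← ph_polar, hv, map_zero, add_zero]

theorem ee_surj (g : CC) : ∃ w, ee w = g := by
  rcases zmod2_cases (PP g) with h | h
  · exact ⟨n2 g, by rw [ee_n2, h, zero_smul, add_zero]⟩
  · exact ⟨n2 g + E8 (pt 0), by rw [map_add, ee_n2, h, one_smul, ee_E8, add_assoc, cc2, add_zero]⟩

theorem dp_iso {f : LL →+ LL} (hf : ∀ v, qq (f v) = qq v) (v w : LL) : dp (f v) (f w) = dp v w := by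
  have := hf (v + w)
  rw [map_add, qq_add, qq_add, hf, hf] at this
  exact add_left_cancel this

/-! ### transvections -/

/-- the transvection of `a` -/
def tv (a : LL) : LL →+ LL := AddMonoidHom.mk' (fun w => w + (dotInt (a : ZV) w / 8) • a) fun v w => by
  obtain ⟨k, hk⟩ := eight_dvd_dot a.2 v.2
  obtain ⟨l, hl⟩ := eight_dvd_dot a.2 w.2
  rw [AddSubgroup.coe_add, dot_add, show (dotInt (a : ZV) v + dotInt (a : ZV) w) / 8 =
    dotInt (a : ZV) v / 8 + dotInt (a : ZV) w / 8 by omega, add_smul]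
  abel

theorem tv_cases (a w : LL) : (dp a w = 0 ∧ Cg (tv a w) w) ∨ (dp a w = 1 ∧ Cg (tv a w) (w + a : LL)) := by
  rcases Int.even_or_odd' (dotInt (a : ZV) w / 8) with ⟨m, h | h⟩
  · refine Or.inl ⟨by rw [dp, h]; simp [show (2 : ZMod 2) = 0 from rfl], cg_iff.2 ⟨m • a, ?_⟩⟩
    change w + _ • a = _
    rw [h, two_mul, add_smul]
  · refine Or.inr ⟨by rw [dp, h]; simp [show (2 : ZMod 2) = 0 from rfl], cg_iff.2 ⟨m • a, ?_⟩⟩
    change w + _ • a = _
    rw [h, two_mul, add_smul, add_smul, one_smul]; abel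

theorem qq_tv {a : LL} (ha : qq a = 1) (w : LL) : qq (tv a w) = qq w := by
  rcases tv_cases a w with ⟨h, e⟩ | ⟨h, e⟩ <;> rw [qq_cg e]
  rw [qq_add, ha, dp_comm, h, add_assoc, z2, add_zero]

theorem tv_tv (a w : LL) : Cg (tv a (tv a w)) w := by
  rcases tv_cases a w with ⟨h, e⟩ | ⟨h, e⟩ <;> rcases tv_cases a (tv a w) with ⟨h', e'⟩ | ⟨h', e'⟩
  · exact e'.trans e
  · rw [dp_comm, dp_cg e, dp_comm, h] at h'; cases h'
  · rw [dp_comm, dp_cg e, dp_comm, dp_add, h, dp_self] at h'; cases h'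
  · exact e'.trans ((e.add (Cg.refl _)).trans (cg_iff.2 ⟨a, add_assoc w a a⟩ : Cg (w + a + a : LL) w))

theorem ee_tv (a w : LL) : ee (tv a w) = ee w + dp a w • ee a := by
  rcases tv_cases a w with ⟨h, e⟩ | ⟨h, e⟩ <;> rw [ee_cg e, h]
  · rw [zero_smul, add_zero]
  · rw [one_smul, map_add]

theorem lift_tv {a : LL} (ha : qq a = 1) : LiftF (tv a) ((60 : FF)⁻¹ • (1 + xm a)) := by
  have t : (xm a)ᵀ = -xm a := by rw [xm_transpose, ha, sn_one, neg_one_smul]
  have s : xm a * xm a = -1 := by rw [xm_sq, ha, sn_one, neg_one_smul]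
  have c : ∀ X : MC, ((60 : FF)⁻¹ * 60⁻¹) • (X + X) = X := fun X => by
    rw [← two_smul FF X, smul_smul, show ((60 : FF)⁻¹ * 60⁻¹) * 2 = 1 by
      rw [show (2 : FF) = 60 * 60 by decide, mul_mul_mul_comm, inv_mul_cancel₀ (by decide), mul_one], one_smul]
  have c' : ∀ {X Y : MC}, X = Y + Y → ((60 : FF)⁻¹ * 60⁻¹) • X = Y := fun h => by rw [h, c]
  refine ⟨?_, fun v => ?_⟩
  · rw [transpose_smul, smul_mul_smul_comm, transpose_add, transpose_one, t]
    refine c' ?_
    simp only [add_mul, mul_add, Matrix.one_mul, Matrix.mul_one, neg_mul, s]; abel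
  have k := xm_comm v a
  rw [dp_comm] at k
  rcases tv_cases a v with ⟨h, e⟩ | ⟨h, e⟩ <;> rw [h] at k <;> rw [xm_cg e]
  · refine ⟨0, ?_⟩
    rw [sn_zero, one_smul] at k ⊢
    rw [transpose_smul, smul_mul_assoc, smul_mul_smul_comm, transpose_add, transpose_one, t]
    refine c' ?_
    simp only [add_mul, mul_add, Matrix.one_mul, Matrix.mul_one, mul_neg, ← k]
    rw [Matrix.mul_assoc, s, mul_neg, Matrix.mul_one]; abel
  · refine ⟨1 + ph v (ee a), ?_⟩
    rw [sn_one, neg_one_smul, ← neg_eq_iff_eq_neg] at k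
    rw [sn_add, mul_smul (sn 1), ← xm_mul, sn_one, neg_one_smul, transpose_smul, smul_mul_assoc,
      smul_mul_smul_comm, transpose_add, transpose_one, t]
    refine c' ?_
    simp only [add_mul, mul_add, Matrix.one_mul, Matrix.mul_one, mul_neg, ← k, neg_mul]
    rw [Matrix.mul_assoc, s, mul_neg, Matrix.mul_one]; abel

/-! ### the stabiliser of the kernel of `ee` -/

theorem exists_quad {γ : CC →+ CC →+ ZMod 2} (h : ∀ c, γ c c = 0) :
    ∃ τ : CC → ZMod 2, ∀ c d, τ (c + d) = τ c + τ d + γ c d := by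
  have sy : ∀ c d, γ c d = γ d c := fun c d => by
    have := h (c + d)
    simp only [map_add, AddMonoidHom.add_apply, h] at this
    linear_combination this - z2 (γ d c)
  let b := Module.finBasis (ZMod 2) CC
  let B : CC →ₗ[ZMod 2] CC →ₗ[ZMod 2] ZMod 2 :=
    b.constr (ZMod 2) fun i => b.constr (ZMod 2) fun j => if i < j then γ (b i) (b j) else 0
  let γ' : CC →ₗ[ZMod 2] CC →ₗ[ZMod 2] ZMod 2 := LinearMap.mk₂ (ZMod 2) (fun c d => γ c d)
    (fun _ _ _ => by rw [map_add]; rfl) (fun t c d => map_smul2 (γ.flip d) t c)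
    (fun _ _ _ => map_add _ _ _) fun t c d => map_smul2 _ _ _
  have e : B + B.flip = γ' := LinearMap.ext_basis b b fun i j => by
    change _ = γ (b i) (b j)
    simp only [B, LinearMap.add_apply, LinearMap.flip_apply, Module.Basis.constr_basis]
    rcases lt_trichotomy i j with k | rfl | k
    · rw [if_pos k, if_neg k.not_gt, add_zero]
    · rw [if_neg (lt_irrefl _), add_zero, h]
    · rw [if_pos k, if_neg k.not_gt, zero_add, sy]
  refine ⟨fun c => B c c, fun c d => ?_⟩
  have : B c d + B d c = γ c d := LinearMap.congr_fun₂ e c d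
  simp only [map_add, LinearMap.add_apply, ← this]
  ring

theorem lift_par {f : LL →+ LL} (hf : ∀ v, qq (f v) = qq v) (h0 : ∀ u, ee u = 0 → ee (f u) = 0) :
    ∃ h, LiftF f h := by
  choose σ hσ using ee_surj
  have wd : ∀ v w, ee v = ee w → ee (f v) = ee (f w) := fun v w e => by
    have := h0 (v - w) (by rw [map_sub, e, sub_self])
    rwa [map_sub, map_sub, sub_eq_zero] at this
  let A : CC →+ CC := AddMonoidHom.mk' (fun c => ee (f (σ c))) fun c d => by
    rw [← map_add, ← map_add]; exact wd _ _ (by rw [map_add, hσ, hσ, hσ])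
  have hA : ∀ v, A (ee v) = ee (f v) := fun v => wd _ _ (hσ _)
  have inj : Function.Injective A := (injective_iff_map_eq_zero A).2 fun c hc => Subtype.ext <| funext fun i => by
    rw [← ph_lam, ← hσ c, ← dp_of_ee (ee_lam i), ← dp_iso hf, dp_of_ee (h0 _ (ee_lam i)), ← hA, hσ, hc, map_zero]
    rfl
  let δ : LL →+ CC →+ ZMod 2 := ph + (ph.comp f).compl₂ A
  have hδ : ∀ v d, δ v d = ph v d + ph (f v) (A d) := fun _ _ => rfl
  have sy : ∀ v w, δ v (ee w) = δ w (ee v) := fun v w => by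
    rw [hδ, hδ, hA, hA]
    linear_combination ph_polar v w + ph_polar (f v) (f w) + dp_iso hf v w + z2 (dp v w) -
      z2 (ph w (ee v)) - z2 (ph (f w) (ee (f v)))
  have wd2 : ∀ v d, δ (σ (ee v)) d = δ v d := fun v d => by rw [← hσ d, sy, hσ, sy]
  let γ : CC →+ CC →+ ZMod 2 := AddMonoidHom.mk' (fun c => δ (σ c)) fun c d => by
    ext e
    rw [← map_add, ← wd2 (σ c + σ d), map_add, hσ, hσ]
  obtain ⟨τ, hτ⟩ := exists_quad (γ := γ) fun c => by
    change δ (σ c) c = 0
    conv_lhs => rw [← hσ c]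
    rw [wd2, hδ, hA, ph_self, ph_self, hf, z2]
  obtain ⟨h, hh⟩ : ∃ h : MC, ∀ c d, h c d = if c = A d then sn (τ d) else 0 := ⟨fun c d => _, fun _ _ => rfl⟩
  have o : hᵀ * h = 1 := by
    ext c d
    simp only [hh, mul_apply, transpose_apply, mul_ite, mul_zero, Finset.sum_ite_eq', Finset.mem_univ, if_true,
      inj.eq_iff, one_apply, ite_mul, zero_mul, @eq_comm _ d]
    split_ifs with k
    · rw [k, sn_mul_self]
    · rfl
  refine ⟨h, o, fun v => ⟨τ (ee v), ?_⟩⟩
  have : h * xm v = sn (τ (ee v)) • (xm (f v) * h) := by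
    ext c d
    simp only [hh, mul_apply, xm, mul_ite, mul_zero, Finset.sum_ite_eq', Finset.mem_univ, if_true,
      Matrix.smul_apply, smul_eq_mul, map_add, hA, ite_mul, zero_mul]
    have e : γ (ee v) d = ph v d + ph (f v) (A d) := (wd2 v d).trans (hδ v d)
    split_ifs
    · rw [add_comm d, hτ, e, ← sn_add, ← sn_add, ← sn_add]
      exact congrArg sn (by linear_combination z2 (ph v d))
    · rfl
  rw [this, smul_mul_assoc, Matrix.mul_assoc, orth_comm o, Matrix.mul_one]

/-! ### the general case -/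

theorem lift_iso (n : ℕ) : ∀ {f : LL →+ LL}, (∀ v, qq (f v) = qq v) →
    {c | ∃ u, ee u = 0 ∧ ee (f u) = c}.ncard ≤ n → ∃ h, LiftF f h := by
  induction n with
  | zero =>
    intro f _ hn
    refine absurd hn (not_le.2 ((Set.ncard_pos (Set.toFinite _)).2 ?_))
    exact ⟨_, 0, map_zero _, rfl⟩
  | succ n ih =>
    intro f hf hn
    by_cases h0 : ∀ u, ee u = 0 → ee (f u) = 0
    · exact lift_par hf h0
    push Not at h0
    obtain ⟨u, hu, hx⟩ := h0
    obtain ⟨i, hi⟩ : ∃ i, (ee (f u) : Wd) i = 1 := by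
      by_contra k
      push Not at k
      exact hx (Subtype.ext (funext fun i => (zmod2_cases _).resolve_right (k i)))
    have q0 : ∀ u, ee u = 0 → qq u = 0 := fun u h => by rw [← ph_self, h, map_zero]
    have ha : qq (lam i + f u) = 1 := by
      rw [qq_add, hf, q0 _ hu, q0 _ (ee_lam i), dp_of_ee (ee_lam i), ph_lam, hi, zero_add, zero_add]
    have key : ∀ w, ee w = 0 → ee (tv (lam i + f u) (f w)) = ee (f w) + (ee (f w) : Wd) i • ee (f u) := fun w hw => by
      rw [ee_tv, dp_add_left, dp_iso hf, dp_of_ee hu, hw, map_zero, add_zero, dp_of_ee (ee_lam i), ph_lam, map_add,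
        ee_lam, zero_add]
    refine (ih (f := (tv (lam i + f u)).comp f) (fun v => (qq_tv ha _).trans (hf v))
      (Nat.le_of_lt_succ (lt_of_lt_of_le (Set.ncard_lt_ncard ⟨?_, fun k => ?_⟩ (Set.toFinite _)) hn))).elim
      fun h hL => ⟨_, ((lift_tv ha).mul hL).congr fun v => tv_tv _ _⟩
    · rintro _ ⟨w, hw, rfl⟩
      rw [AddMonoidHom.comp_apply, key w hw]
      rcases zmod2_cases ((ee (f w) : Wd) i) with k | k <;> rw [k]
      · exact ⟨w, hw, by rw [zero_smul, add_zero]⟩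
      · exact ⟨w + u, by rw [map_add, hw, hu, add_zero], by rw [one_smul, map_add, map_add]⟩
    · obtain ⟨w, hw, e⟩ := k ⟨u, hu, rfl⟩
      rw [AddMonoidHom.comp_apply, key w hw] at e
      have := congrArg (fun c : CC => (c : Wd) i) e
      simp only [Submodule.coe_add, Submodule.coe_smul, Pi.add_apply, Pi.smul_apply, hi, smul_eq_mul, mul_one,
        z2] at this
      cases this

theorem exists_lift (g : Co0) : ∃ h, Lift g h :=
  lift_iso _ (f := AddMonoidHom.mk' (g • ·) (co_add g)) (qq_co g) le_rfl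

end CA.Gr
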