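import Cfsg.Agent.Lib.Gr.Gram
import Cfsg.Agent.Lib.Gr.Lift

/-!
Lifts of the identity, and some linear algebra on symmetric matrices.
-/

set_option autoImplicit false

namespace CA.Gr
open Cfsg CA.Gol CA.Co Matrix
open scoped Kronecker

theorem exists_ph (χ : CC →+ ZMod 2) : ∃ v, ee v = 0 ∧ ∀ d, ph v d = χ d := by
  obtain ⟨g, hg⟩ := (χ.toZModLinearMap 2).exists_extend
  refine ⟨∑ i, (g fun j => if i = j then 1 else 0).val • lam i, ?_, fun d => ?_⟩
  · simp only [map_sum, map_nsmul, ee_lam, smul_zero, Finset.sum_const_zero]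
  · rw [show χ d = g d from (LinearMap.congr_fun hg d).symm, LinearMap.pi_apply_eq_sum_univ g, map_sum,
      AddMonoidHom.finsetSum_apply]
    refine Finset.sum_congr rfl fun i _ => ?_
    rw [map_nsmul, AddMonoidHom.nsmul_apply, ph_lam, nsmul_eq_mul, ZMod.natCast_zmod_val, smul_eq_mul, mul_comm]

theorem mul_xm (h : MC) (w : LL) (c d : CC) : (h * xm w) c d = h c (d + ee w) * sn (ph w d) := by
  simp only [mul_apply, xm, mul_ite, mul_zero, Finset.sum_ite_eq', Finset.mem_univ, if_true]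
theorem xm_mul' (h : MC) (w : LL) (c d : CC) : (xm w * h) c d = sn (ph w (c + ee w)) * h (c + ee w) d := by
  have : ∀ e, c = e + ee w ↔ e = c + ee w := fun e =>
    ⟨fun k => by rw [k, add_assoc, cc2, add_zero], fun k => by rw [k, add_assoc, cc2, add_zero]⟩
  simp only [mul_apply, xm, this, ite_mul, zero_mul, Finset.sum_ite_eq', Finset.mem_univ, if_true]

theorem Lift.comm {g : Co0} {h : MC} (hL : Lift g h) (v : LL) : ∃ a, h * xm v = sn a • (xm (g • v) * h) :=
  (hL.2 v).imp fun a ha => by rw [← smul_mul_assoc, ← ha, Matrix.mul_assoc, hL.1, Matrix.mul_one]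

theorem sn_cancel {a b : ZMod 2} {x : FF} (h : x ≠ 0) (e : x * sn a = sn b * x) : a = b :=
  sn_inj (mul_left_cancel₀ h (e.trans (mul_comm _ _)))

theorem lift_diag {k : MC} (hL : Lift 1 k) (hd : ∀ c d, c ≠ d → k c d = 0) : ∃ t w, k = sn t • xm w := by
  have h1 : ∀ c, ∃ a, k c c = sn a := fun c => exists_sn (by
    have := congrFun (congrFun hL.1 c) c
    rwa [mul_apply, one_apply_eq, Finset.sum_eq_single c (fun e _ he => by rw [hd e c he, mul_zero])
      (fun e => absurd (Finset.mem_univ _) e)] at this)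
  choose s hs using h1
  have h2 : ∀ e, ∃ a, ∀ d, s (d + e) = a + s d := fun e => by
    obtain ⟨v, rfl⟩ := ee_surj e
    obtain ⟨a, ha⟩ := hL.comm v
    refine ⟨a, fun d => sn_inj ?_⟩
    have := congrFun (congrFun ha (d + ee v)) d
    rw [Matrix.smul_apply, one_smul, mul_xm, xm_mul', add_assoc, cc2, add_zero, hs, hs, smul_eq_mul, mul_comm (sn (ph v d)),
      ← mul_assoc, mul_left_inj' (sn_ne_zero _)] at this
    rw [this, sn_add]
  obtain ⟨v, h3, h4⟩ := exists_ph (AddMonoidHom.mk' (fun d => s d + s 0) fun d e => by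
    obtain ⟨a, ha⟩ := h2 e
    have := ha 0
    rw [zero_add] at this
    rw [ha, this]
    linear_combination -z2 (s 0))
  refine ⟨s 0, v, ?_⟩
  ext c d
  rw [Matrix.smul_apply, xm, h3, add_zero, h4, smul_eq_mul]
  split_ifs with e
  · rw [e, hs, AddMonoidHom.mk'_apply, sn_add, mul_left_comm, sn_mul_self, mul_one]
  · rw [hd c d e, mul_zero]

/-- a lift of the identity lies in the extraspecial group -/
theorem lift_one {h : MC} (hL : Lift 1 h) : ∃ t w, h = sn t • xm w := by
  obtain ⟨c0, d0, h0⟩ : ∃ c d, h c d ≠ 0 := by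
    by_contra hc
    push Not at hc
    have := hL.1
    rw [show h = 0 from Matrix.ext hc, Matrix.mul_zero] at this
    exact zero_ne_one this
  have h1 : ∀ i, ∃ a, ∀ c d, h c d ≠ 0 → (d : Wd) i = a + (c : Wd) i := fun i =>
    (hL.comm (lam i)).imp fun a ha c d hcd => by
      have := congrFun (congrFun ha c) d
      rw [Matrix.smul_apply, one_smul, mul_xm, xm_mul', ee_lam, add_zero, add_zero, ph_lam, ph_lam, smul_eq_mul,
        ← mul_assoc, ← sn_add] at this
      exact sn_cancel hcd this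
  obtain ⟨w, hw⟩ := ee_surj (c0 + d0)
  have h2 := hL.mul (lift_xm 0 w)
  rw [mul_one, sn_zero, one_smul] at h2
  obtain ⟨t, v, e⟩ := lift_diag h2 fun c d hcd => by
    rw [mul_xm, mul_eq_zero_of_left]
    by_contra k
    refine hcd (Subtype.ext (funext fun i => ?_))
    obtain ⟨a, ha⟩ := h1 i
    have e1 := ha _ _ k
    have e2 := ha _ _ h0
    rw [hw, Submodule.coe_add, Submodule.coe_add, Pi.add_apply, Pi.add_apply, e2] at e1
    linear_combination -e1 + z2 (c0.1 i)
  refine ⟨t + (qq w + ph v (ee w)), v + w, ?_⟩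
  rw [← Matrix.mul_one h, ← xm_orth w, ← Matrix.mul_assoc, e, xm_transpose, smul_mul_smul_comm, xm_mul, smul_smul,
    sn_add, sn_add, mul_assoc]

theorem mat_ext {n : Type*} [Fintype n] [DecidableEq n] {M N : Matrix n n FF}
    (h : ∀ u v, u ⬝ᵥ M *ᵥ v = u ⬝ᵥ N *ᵥ v) : M = N := by
  ext i j
  simpa using h (Pi.single i 1) (Pi.single j 1)

theorem qf_pair {A : MG} (h : ∀ r, Mn r → qf A r = 0) {i j : GolayPt} (hij : i ≠ j) {ε : ℤ} (hε : ε * ε = 1) :
    A i i + A j j + ε * (A i j + A j i) = 0 := by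
  have h1 : (4 : ℤ) • (Pi.single i 1 + Pi.single j ε : ZV) ∈ leechLattice := four_mem (by
    simp only [Pi.add_apply, Finset.sum_add_distrib, Finset.sum_pi_single', Finset.mem_univ, if_true]
    rcases mul_self_eq_one_iff.1 hε with rfl | rfl <;> norm_num)
  have h2 : cz ⟨_, h1⟩ = (4 : FF) • (Pi.single i 1 + Pi.single j (ε : FF)) := funext fun p => by
    simp only [cz, Pi.smul_apply, Pi.add_apply, Pi.single_apply, smul_eq_mul]
    split_ifs <;> push_cast <;> ring
  have := h ⟨_, h1⟩ (by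
    rw [Mn, sqNorm_smul, sqNorm_add, sqNorm_eq_dot, sqNorm_eq_dot]
    show _ * (_ ⬝ᵥ _ + _ ⬝ᵥ _ + 2 * (_ ⬝ᵥ _)) = _
    simp [hij, hε])
  rw [qf, h2] at this
  simp only [mulVec_smul, mulVec_add, smul_dotProduct, dotProduct_smul, add_dotProduct, dotProduct_add,
    single_dotProduct, mulVec_single, smul_eq_mul, col_apply, MulOpposite.smul_eq_mul_unop,
    MulOpposite.unop_op, one_mul, mul_one] at this
  have e : (ε : FF) * ε = 1 := by exact_mod_cast congrArg (Int.cast : ℤ → FF) hε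
  have h16 : (16 : FF) * (A i i + A j j + ε * (A i j + A j i)) = 0 := by
    linear_combination this - 16 * A j j * e
  exact (mul_eq_zero.1 h16).resolve_left (ff_ne 16)

theorem qf_zero {A : MG} (hA : Aᵀ = A) (h : ∀ r, Mn r → qf A r = 0) : A = 0 := by
  have h1 : ∀ {i j}, i ≠ j → A i i + A j j = 0 ∧ A i j = 0 := fun {i j} hij => by
    have e1 := qf_pair h hij (ε := 1) rfl
    have e2 := qf_pair h hij (ε := -1) rfl
    rw [← transpose_apply A i j, hA] at e1 e2
    push_cast at e1 e2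
    exact ⟨mul_left_cancel₀ (ff_ne 2) (by linear_combination e1 + e2),
      mul_left_cancel₀ (ff_ne 4) (by linear_combination e1 - e2)⟩
  ext i j
  by_cases e : i = j
  · subst e
    obtain ⟨j, k, h2, h3, h4⟩ : ∃ j k, i ≠ j ∧ i ≠ k ∧ j ≠ k := by revert i; decide
    exact mul_left_cancel₀ (ff_ne 2) (by rw [Matrix.zero_apply]; linear_combination (h1 h2).1 + (h1 h3).1 - (h1 h4).1)
  · exact (h1 e).2

theorem trace_RRR (r s t : LL) : (Rk r * Rk s * Rk t).trace = (DD r s * DD s t * DD r t : ℤ) := by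
  simp only [Rk, vecMulVec_mul_vecMulVec, trace_vecMulVec, cz_dot, smul_eq_mul, vecMulVec_smul,
    smul_mul_assoc, trace_smul]
  push_cast
  ring

theorem tri_inj {r s t r' s' t' : LL} (hr : Mn r) (hs : Mn s) (ht : Mn t) (hr' : Mn r') (hs' : Mn s') (ht' : Mn t')
    (h : (Rk r * Rk s * Rk t).trace = (Rk r' * Rk s' * Rk t').trace) :
    DD r s * DD s t * DD r t = DD r' s' * DD s' t' * DD r' t' := by
  have bd : ∀ {a b c : ℤ}, -4 ≤ a ∧ a ≤ 4 → -4 ≤ b ∧ b ≤ 4 → -4 ≤ c ∧ c ≤ 4 → -64 ≤ a * b * c ∧ a * b * c ≤ 64 :=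
    fun ha hb hc => abs_le.1 (by
      rw [abs_mul, abs_mul, show (64 : ℤ) = 4 * 4 * 4 from rfl]
      have := abs_le.2 ha
      have := abs_le.2 hb
      have := abs_le.2 hc
      gcongr)
  obtain ⟨a, e1, ha⟩ := hr.dot_cases hs
  obtain ⟨b, e2, hb⟩ := hs.dot_cases ht
  obtain ⟨c, e3, hc⟩ := hr.dot_cases ht
  obtain ⟨a', e4, ha'⟩ := hr'.dot_cases hs'
  obtain ⟨b', e5, hb'⟩ := hs'.dot_cases ht'
  obtain ⟨c', e6, hc'⟩ := hr'.dot_cases ht'
  rw [trace_RRR, trace_RRR] at h
  rw [e1, e2, e3, e4, e5, e6] at h ⊢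
  have := bd ha hb hc
  have := bd ha' hb' hc'
  have : a * b * c = a' * b' * c' := cast_inj (mul_left_cancel₀ (ff_ne 512) (by push_cast at h ⊢; linear_combination h))
    (by omega) (by omega)
  linear_combination 512 * this

theorem Rk_inj {r s : LL} (hr : Mn r) (hs : Mn s) (h : Rk r = Rk s) : s = r ∨ s = -r := by
  have := tri_inj hr hs hs hs hs hs (by rw [h])
  rw [hs.dd] at this
  exact hr.eq_or hs (by linarith)

theorem NN_of_Rk {r s : LL} (hr : Mn r) (hs : Mn s) (h : Rk r = Rk s) : NN s = NN r := by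
  rcases Rk_inj hr hs h with rfl | rfl
  exacts [rfl, NN_neg _]

theorem Mn.not_cg {r : LL} (h : Mn r) : ¬ Cg r 0 := fun k => by
  have := k.norm_eq (zero_mem _) (by rw [h]; norm_num) (by simp [sqNorm])
  rw [h] at this; simp [sqNorm] at this

theorem MM_ne {r : LL} (h : Mn r) : MM r ≠ 0 := fun e => by
  have := congrArg trace e
  rw [MM, trace_sub, trace_smul, trace_one, card_golayPt, Rk, trace_vecMulVec, cz_dot, ← sqNorm_eq_dot, h,
    trace_zero] at this
  revert this; decide

theorem kron_cancel {m : MG} (hm : m ≠ 0) {h k : MC} (e : m ⊗ₖ h = m ⊗ₖ k) : h = k := by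
  obtain ⟨i, j, h0⟩ : ∃ i j, m i j ≠ 0 := by
    by_contra hc
    push Not at hc
    exact hm (Matrix.ext hc)
  ext c d
  exact mul_left_cancel₀ h0 (congrFun (congrFun e (i, c)) (j, d))

/-- a matrix commuting with all symmetric matrices on the first factor -/
theorem kron_of_comm {P : MI} (h : ∀ i j, SS i j ⊗ₖ (1 : MC) * P = P * SS i j ⊗ₖ (1 : MC)) :
    ∃ k : MC, P = (1 : MG) ⊗ₖ k := by
  have key : ∀ i j p q c d, (if i = p then P (j, c) (q, d) else 0) + (if j = p then P (i, c) (q, d) else 0) =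
      (if j = q then P (p, c) (i, d) else 0) + (if i = q then P (p, c) (j, d) else 0) := fun i j p q c d => by
    have := congrFun (congrFun (h i j) (p, c)) (q, d)
    simpa only [mul_apply, Fintype.sum_prod_type, kroneckerMap_apply, SS, Matrix.add_apply, one_apply, single_apply,
      add_mul, mul_add, ite_and, ite_mul, mul_ite, one_mul, mul_one, zero_mul, mul_zero, Finset.sum_add_distrib,
      Finset.sum_ite_eq, Finset.sum_ite_eq', Finset.mem_univ, if_true, Finset.sum_ite_irrel, Finset.sum_const_zero]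
      using this
  refine ⟨fun c d => P (pt 0, c) (pt 0, d), ?_⟩
  ext ⟨p, c⟩ ⟨q, d⟩
  show _ = (1 : MG) p q * P (pt 0, c) (pt 0, d)
  rw [one_apply]
  split_ifs with e
  · subst e
    by_cases e : p = pt 0
    · rw [e, one_mul]
    · have := key (pt 0) p (pt 0) p c d
      simpa [e, Ne.symm e] using this
  · have := key p p p q c d
    simp only [if_true, if_neg e, add_zero] at this
    rw [zero_mul]
    exact mul_left_cancel₀ (ff_ne 2) (by linear_combination this)

end CA.Gr
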