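import Cfsg.Agent.Lib.Gr.Alg
import Cfsg.Agent.S5392

/-!
Maps of the minimal vectors preserving the triple products come from automorphisms of the lattice.
-/

set_option autoImplicit false

namespace CA.Gr
open Cfsg CA.Gol CA.Co Matrix

/-- the inner product of lattice vectors -/
abbrev DD (u v : LL) : ℤ := dotInt (u : ZV) v

theorem DD_comm (u v : LL) : DD u v = DD v u := dot_comm _ _
theorem DD_add (u v w : LL) : DD u (v + w) = DD u v + DD u w := dot_add _ _ _
theorem DD_neg (u v : LL) : DD u (-v) = -DD u v := dot_neg _ _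
theorem DD_add' (u v w : LL) : DD (u + v) w = DD u w + DD v w := by simp only [DD_comm _ w, DD_add]
theorem DD_neg' (u v : LL) : DD (-u) v = -DD u v := dot_neg_left _ _
theorem DD_zero (u : LL) : DD u 0 = 0 := by simp [dotInt]
theorem DD_eq_zero {u : LL} (h : DD u u = 0) : u = 0 := Subtype.ext (sqNorm_eq_zero ((sqNorm_eq_dot _).trans h))
theorem Mn.dd {r : LL} (h : Mn r) : DD r r = 32 := (sqNorm_eq_dot _).symm.trans h

theorem Mn.dot_cases {r s : LL} (hr : Mn r) (hs : Mn s) : ∃ k : ℤ, DD r s = 8 * k ∧ -4 ≤ k ∧ k ≤ 4 := by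
  obtain ⟨k, hk⟩ := eight_dvd_dot r.2 s.2
  have h1 := sqNorm_nonneg ((r : ZV) + s)
  have h2 := sqNorm_nonneg ((r : ZV) - s)
  rw [sqNorm_add, hr, hs] at h1
  rw [sqNorm_sub, hr, hs] at h2
  exact ⟨k, hk, by omega, by omega⟩

theorem Mn.eq_or {r s : LL} (hr : Mn r) (hs : Mn s) (h : DD r s * DD r s = 32 * 32) : s = r ∨ s = -r := by
  rcases mul_self_eq_mul_self_iff.1 h with e | e
  · refine Or.inl (Subtype.ext (sub_eq_zero.1 (sqNorm_eq_zero ?_)).symm)
    rw [sqNorm_sub, hr, hs, show dotInt (r : ZV) s = _ from e]; rfl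
  · refine Or.inr (Subtype.ext (eq_neg_of_add_eq_zero_right (sqNorm_eq_zero ?_)))
    rw [sqNorm_add, hr, hs, show dotInt (r : ZV) s = _ from e]; rfl

theorem mn_ind {M : AddSubgroup LL} (h : ∀ v, Mn v → v ∈ M) (v : LL) : v ∈ M :=
  eq_top_of_short (fun v hv _ => h v hv) v

theorem sum_lam (i : GolayPt) : ∑ p, (lam i : ZV) p = 20 := by
  simp only [lam, Finset.sum_sub_distrib, ← Finset.mul_sum, sum_iz]
  simp
theorem mn_lam (i : GolayPt) : Mn (lam i) := by
  rw [Mn, sqNorm_eq_dot, dot_lam, sum_lam]; simp [lam, iz]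
theorem DD_lam_ne (i j : GolayPt) : DD (lam i) (lam j) ≠ 0 := by
  rw [DD, dot_lam, sum_lam]; simp only [lam, iz]; split_ifs <;> norm_num
theorem eq_zero_of_lam {a : LL} (h : ∀ i, DD a (lam i) = 0) : a = 0 := by
  have h1 : ∀ i, ∑ p, (a : ZV) p = 4 * (a : ZV) i := fun i => by have := h i; rw [DD, dot_lam] at this; omega
  have h2 := Finset.sum_congr (rfl (a := Finset.univ)) fun i _ => h1 i
  rw [← Finset.mul_sum, Finset.sum_const, Finset.card_univ, card_golayPt, nsmul_eq_mul] at h2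
  refine Subtype.ext (funext fun i => ?_)
  have := h1 i
  show (a : ZV) i = 0
  push_cast at h2
  omega
theorem eq_or_of_lam {a b : LL} (h : ∀ i j, DD a (lam i) * DD a (lam j) = DD b (lam i) * DD b (lam j)) :
    a = b ∨ a = -b := by
  by_cases h0 : ∀ i, DD b (lam i) = 0
  · rw [eq_zero_of_lam h0, eq_zero_of_lam fun i => mul_self_eq_zero.1 ((h i i).trans (by rw [h0, mul_zero]))]
    exact Or.inl rfl
  obtain ⟨i, hi⟩ := not_forall.1 h0
  refine (mul_self_eq_mul_self_iff.1 (h i i)).imp (fun e => sub_eq_zero.1 (eq_zero_of_lam fun j => ?_))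
    fun e => eq_neg_of_add_eq_zero_left (eq_zero_of_lam fun j => ?_)
  · have := h i j
    rw [e, mul_right_inj' hi] at this
    rw [sub_eq_add_neg, DD_add', DD_neg', this, add_neg_cancel]
  · have := h i j
    rw [e, neg_mul_comm, mul_right_inj' hi] at this
    rw [DD_add', ← this, add_neg_cancel]

theorem exists_co_aux (f : LL → LL) (h : ∀ u v, Mn u → DD u (lam (pt 0)) ≠ 0 → Mn v → DD v (lam (pt 0)) ≠ 0 →
    DD (f u) (f v) = DD u v) : ∃ g : Co0, ∀ v, Mn v → DD v (lam (pt 0)) ≠ 0 → g • v = f v := by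
  set Γ := AddSubgroup.closure {p : LL × LL | Mn p.1 ∧ DD p.1 (lam (pt 0)) ≠ 0 ∧ p.2 = f p.1} with hΓ
  have st : ∀ a : LL × LL, (∀ v, Mn v → DD v (lam (pt 0)) ≠ 0 → DD a.2 (f v) = DD a.1 v) →
      ∀ b ∈ Γ, DD a.2 b.2 = DD a.1 b.1 := fun a ha b hb =>
    AddSubgroup.closure_induction (p := fun b _ => DD a.2 b.2 = DD a.1 b.1)
      (fun p hp => by rw [hp.2.2]; exact ha _ hp.1 hp.2.1) (by simp only [Prod.fst_zero, Prod.snd_zero, DD_zero])
      (fun x y _ _ h k => by rw [Prod.fst_add, Prod.snd_add, DD_add, DD_add, h, k])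
      (fun x _ h => by rw [Prod.fst_neg, Prod.snd_neg, DD_neg, DD_neg, h]) hb
  have key : ∀ a ∈ Γ, ∀ b ∈ Γ, DD a.2 b.2 = DD a.1 b.1 := fun a ha => st a fun v h1 h2 => by
    rw [DD_comm, DD_comm a.1]; exact st (v, f v) (fun w => h v w h1 h2) a ha
  have ex : ∀ v, ∃ w, (v, w) ∈ Γ := fun v => by
    obtain ⟨p, hp, e⟩ := eq_top_of_short (H := Γ.map (AddMonoidHom.fst _ _)) (fun v h1 h2 =>
      ⟨(v, f v), AddSubgroup.subset_closure ⟨h1, by
        rwa [DD, show (lam (pt 0) : ZV) = v0 from funext fun p => (v0_eq p).symm], rfl⟩, rfl⟩) v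
    exact ⟨p.2, e ▸ hp⟩
  choose k hk using ex
  have un : ∀ v w, (v, w) ∈ Γ → k v = w := fun v w hw => by
    have := sub_mem (hk v) hw
    refine sub_eq_zero.1 (DD_eq_zero ((key _ this _ this).trans ?_))
    simp only [Prod.fst_sub, sub_self, DD_zero]
  have ad : ∀ v w, k (v + w) = k v + k w := fun v w => un _ _ (add_mem (hk v) (hk w))
  have nm : ∀ v, sqNorm (k v : ZV) = sqNorm (v : ZV) := fun v => by
    rw [sqNorm_eq_dot, sqNorm_eq_dot]; exact key _ (hk v) _ (hk v)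
  let K := AddMonoidHom.mk' k ad
  have inj : Function.Injective K := (injective_iff_map_eq_zero K).2 fun a ha =>
    Subtype.ext (sqNorm_eq_zero (by rw [← nm, show k a = 0 from ha]; rfl))
  have sur : Function.Surjective K := fun v => mn_ind (M := K.range) (fun v hv =>
    ((finite_mn.injOn_iff_bijOn_of_mapsTo (f := K) fun a ha => (nm a).trans ha).1 inj.injOn).surjOn hv |>.imp
      fun _ h => h.2) v
  exact ⟨⟨Equiv.ofBijective K ⟨inj, sur⟩, ad, nm⟩, fun v h1 h2 => un _ _ (AddSubgroup.subset_closure ⟨h1, h2, rfl⟩)⟩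

theorem exists_co (f : LL → LL) (h1 : ∀ v, Mn v → Mn (f v)) (h3 : ∀ u v w, Mn u → Mn v → Mn w →
    DD (f u) (f v) * DD (f v) (f w) * DD (f u) (f w) = DD u v * DD v w * DD u w) :
    ∃ g : Co0, ∀ v, Mn v → f v = g • v ∨ f v = -(g • v) := by
  have ho := mn_lam (pt 0)
  set o := lam (pt 0) with ho'
  have h2 : ∀ v, Mn v → DD (f v) (f o) = DD v o ∨ DD (f v) (f o) = -DD v o := fun v hv => by
    have := h3 v o o hv ho ho
    rw [(h1 o ho).dd, ho.dd] at this
    exact mul_self_eq_mul_self_iff.1 (by linarith)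
  obtain ⟨f', a1, a2, a3⟩ : ∃ f' : LL → LL, (∀ v, ∃ ε : ℤ, ε * ε = 1 ∧ (∀ u, DD u (f' v) = ε * DD u (f v)) ∧
      ∀ u, DD (f' v) u = ε * DD (f v) u) ∧ (∀ v, f v = f' v ∨ f v = -f' v) ∧ ∀ v, Mn v → DD (f' v) (f' o) = DD v o := by
    refine ⟨fun v => if DD (f v) (f o) = DD v o then f v else -f v, fun v => ?_, fun v => ?_, fun v hv => ?_⟩ <;>
      dsimp only
    · split_ifs
      · exact ⟨1, rfl, by simp⟩
      · exact ⟨-1, rfl, by simp [DD_neg, DD_neg']⟩
    · split_ifs <;> simp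
    · rw [if_pos ((h1 o ho).dd.trans ho.dd.symm)]
      split_ifs with e
      · exact e
      · rw [DD_neg', (h2 v hv).resolve_left e, neg_neg]
  have h4 : ∀ u v w, Mn u → Mn v → Mn w →
      DD (f' u) (f' v) * DD (f' v) (f' w) * DD (f' u) (f' w) = DD u v * DD v w * DD u w := fun u v w hu hv hw => by
    obtain ⟨a, e1, -, k1⟩ := a1 u
    obtain ⟨b, e2, k2, k3⟩ := a1 v
    obtain ⟨c, e3, k4, -⟩ := a1 w
    rw [k1, k2, k3, k4, k1, k4, ← h3 u v w hu hv hw]
    linear_combination (DD (f u) (f v) * DD (f v) (f w) * DD (f u) (f w)) * (b * b * c * c * e1 + c * c * e2 + e3)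
  obtain ⟨g, hg⟩ := exists_co_aux f' fun u v hu hu' hv hv' => by
    have := h4 u v o hu hv ho
    rwa [a3 u hu, a3 v hv, mul_left_inj' hu', mul_left_inj' hv'] at this
  refine ⟨g, fun v hv => ?_⟩
  have h5 : g⁻¹ • f' v = v ∨ g⁻¹ • f' v = -v := eq_or_of_lam fun i j => by
    have := h4 v _ _ hv (mn_lam i) (mn_lam j)
    rw [← hg _ (mn_lam i) (DD_lam_ne _ _), ← hg _ (mn_lam j) (DD_lam_ne _ _), ← smul_inv_smul g (f' v), DD, DD, DD,
      co_dot, co_dot, co_dot, mul_right_comm, mul_right_comm (DD v _), mul_left_inj' (DD_lam_ne i j)] at this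
    exact this
  rw [inv_smul_eq_iff, inv_smul_eq_iff, co_neg] at h5
  rcases a2 v with e | e <;> rcases h5 with k | k <;> simp [e, k]

/-- an automorphism fixing all minimal vectors up to sign is central -/
theorem mk_eq_of_mn {g g' : Co0} (h : ∀ v, Mn v → g' • v = g • v ∨ g' • v = -(g • v)) : (g : Spor.Co1) = g' := by
  let M : AddSubgroup LL :=
    { carrier := {v | Cg (g' • v : LL) (g • v : LL)}
      zero_mem' := Cg.of_eq (by simp [co_zero])
      add_mem' := fun {a b} ha hb => by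
        show Cg _ _
        rw [co_add, co_add]; exact ha.add hb
      neg_mem' := fun {a} ha => by
        show Cg _ _
        rw [co_neg, co_neg]; exact ha.neg }
  refine QuotientGroup.eq.2 (Cfsg.Agent.S5392.result.1 _ fun v => ?_)
  have := (mn_ind (M := M) (fun v hv => by
    show Cg _ _
    rcases h v hv with e | e <;> rw [e]
    exacts [Cg.refl _, cg_neg (g • v).2]) v).co g⁻¹
  rw [inv_smul_smul, ← mul_smul] at this
  obtain ⟨w, hw, e⟩ := this
  exact ⟨⟨w, hw⟩, by rw [e]; rfl⟩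

end CA.Gr
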