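import Cfsg.Agent.Lib.Gr.Alg

/-!
The three shapes of minimal vectors, and character sums over the even subsets of an octad.
-/

set_option autoImplicit false

namespace CA.Gr
open Cfsg CA.Gol CA.Co Matrix
open scoped Kronecker

open Classical in
/-- the indicator of a proposition -/
noncomputable def iv (P : Prop) : FF := if P then 1 else 0
theorem iv_pos {P : Prop} (h : P) : iv P = 1 := if_pos h
theorem iv_neg {P : Prop} (h : ¬ P) : iv P = 0 := if_neg h
@[simp] theorem iv_true : iv True = 1 := iv_pos trivial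
@[simp] theorem iv_false : iv False = 0 := iv_neg id
theorem iv_congr {P Q : Prop} (h : P ↔ Q) : iv P = iv Q := by rw [propext h]
theorem iv_and (P Q : Prop) : iv (P ∧ Q) = iv P * iv Q := by
  by_cases h : P <;> by_cases k : Q <;> simp [h, k]
theorem iv_eq_ite (P : Prop) [Decidable P] : iv P = if P then 1 else 0 := by by_cases h : P <;> simp [h]
theorem mul_iv {P : Prop} {a b : FF} (h : P → a = b) : a * iv P = b * iv P := by
  by_cases k : P
  · rw [h k]
  · simp [k]
theorem cast_iw' (w : Wd) (p : GolayPt) : ((iw w p : ℤ) : FF) = iv (w p = 1) := by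
  rcases iw_cases w p with h | h <;> simp [h.1, h.2]
theorem cast_iz (i p : GolayPt) : ((iz {i} p : ℤ) : FF) = iv (p = i) := by
  by_cases h : p = i <;> simp [iz, h]

theorem gH_eq (A : MG) {r s : LL} (hr : Mn r) (hs : Mn s) :
    gH A (NN r) (NN s) = 8 * qf A r * iv (Cg (r + s : LL) 0) := by
  by_cases h : Cg (r + s : LL) 0
  · rw [iv_pos h, mul_one]
    rcases (hr.cg_iff hs).1 h with rfl | rfl
    · exact gH_self A hr
    · rw [NN_neg, gH_self A hr]
  · rw [iv_neg h, gH_ne A h, mul_zero]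
theorem gF_eq {r s t : LL} (hr : Mn r) (hs : Mn s) (ht : Mn t) :
    gF (NN r) (NN s) (NN t) = 64 * sn (ph r (ee s)) * iv (Cg (r + s + t : LL) 0) := by
  by_cases h : Cg (r + s + t : LL) 0
  · rw [iv_pos h, mul_one, gF_of hr hs ht h]
  · rw [iv_neg h, gF_ne h, mul_zero]
theorem smul_Om_eq_zero {t : ZMod 2} : t • Om = 0 ↔ t = 0 :=
  ⟨fun h => by simpa using congrFun (congrArg Subtype.val h) (pt 0), fun h => by rw [h, zero_smul]⟩
theorem cg_crit {v : LL} {t : ZMod 2} {w : Wd} (h1 : ee v = t • Om) (h2 : ∀ g, ph v g = ip w g) :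
    Cg v 0 ↔ t = 0 ∧ w ∈ golayCode := by
  rw [cg_zero_iff', h1, smul_Om_eq_zero]
  simp only [h2]
  exact and_congr_right' ⟨mem_of_ip, fun h g => ip_code ⟨w, h⟩ g⟩

/-! ### pairs -/

theorem sum_ew (i : GolayPt) : ∑ p, ew i p = 1 := by simp [ew_apply]
theorem sum_wd_add (a b : Wd) : ∑ p, (a + b) p = ∑ p, a p + ∑ p, b p := Finset.sum_add_distrib
theorem sum_pair (i j : GolayPt) : ∑ p, (ew i + ew j) p = 0 := by rw [sum_wd_add, sum_ew, sum_ew]; rfl
theorem wt_pair {i j : GolayPt} (h : i ≠ j) : wt (ew i + ew j) = 2 := by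
  have := wt_add (ew i) (ew j)
  rwa [show ew i * ew j = 0 from funext fun p => by by_cases k : p = i <;> simp [ew_apply, k, h], wt_zero, wt_ew,
    wt_ew] at this
theorem hw_pair {i j : GolayPt} (h : i ≠ j) : hw (ew i + ew j) = 1 := by rw [hw, wt_pair h]; rfl
theorem wt_pair_le (i j : GolayPt) : wt (ew i + ew j) ≤ 2 := (wt_le_add _ _).trans (by rw [wt_ew, wt_ew])
theorem wd_add_eq_zero {a b : Wd} : a + b = 0 ↔ a = b := by
  rw [add_eq_zero_iff_eq_neg, ZModModule.neg_eq_self]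
theorem ew_inj {i j : GolayPt} : ew i = ew j ↔ i = j :=
  ⟨fun h => by by_contra k; simpa [ew_apply, k] using congrFun h i, fun h => by rw [h]⟩
theorem pair_mem {i j : GolayPt} : ew i + ew j ∈ golayCode ↔ i = j :=
  ⟨fun h => ew_inj.1 (wd_add_eq_zero.1 (eq_zero_of_small h (by have := wt_pair_le i j; omega))),
    fun h => by rw [h, wd_add_self]; exact zero_mem _⟩
theorem pair_eq {a b i j : GolayPt} (h : a ≠ b) : ew a + ew b = ew i + ew j ↔ (i = a ∧ j = b) ∨ (i = b ∧ j = a) := by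
  refine ⟨fun e => ?_, by rintro (⟨rfl, rfl⟩ | ⟨rfl, rfl⟩) <;> simp [add_comm]⟩
  have h1 := congrFun e a
  have h2 := congrFun e b
  simp only [Pi.add_apply, ew_apply] at h1 h2
  by_cases k1 : a = i <;> by_cases k2 : a = j <;> by_cases k3 : b = i <;> by_cases k4 : b = j <;>
    simp_all [eq_comm]

/-- the vectors `(4, ∓4, 0, …)` -/
noncomputable def rp (t : ZMod 2) (i j : GolayPt) : LL := if t = 0 then lam j - lam i else n4 (ew i + ew j)
theorem rp_val (t : ZMod 2) {i j : GolayPt} (h : i ≠ j) (p : GolayPt) :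
    (rp t i j : ZV) p = 4 * iz {i} p + (if t = 0 then -4 else 4) * iz {j} p := by
  rcases zmod2_cases t with rfl | rfl
  · simp [rp, lam]; ring
  · have := iw_cases (ew i + ew j) p
    by_cases k1 : p = i <;> by_cases k2 : p = j <;> simp_all [rp, coe_n4 (sum_pair i j), iz, ew_apply, -Pi.add_apply] <;>
      simp_all [ew_apply]
theorem rp_mn (t : ZMod 2) {i j : GolayPt} (h : i ≠ j) : Mn (rp t i j) := by
  rw [Mn, sqNorm, Finset.sum_congr rfl (g := fun p => 16 * iz {i} p + 16 * iz {j} p) fun p _ => by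
    rw [rp_val t h]; by_cases k1 : p = i <;> by_cases k2 : p = j <;> split_ifs <;> simp_all [iz]]
  simp only [Finset.sum_add_distrib, ← Finset.mul_sum, sum_iz]; rfl
theorem cz_rp (t : ZMod 2) {i j : GolayPt} (h : i ≠ j) (p : GolayPt) :
    cz (rp t i j) p = 4 * (iv (p = i) - sn t * iv (p = j)) := by
  rw [cz, rp_val t h]
  rcases zmod2_cases t with rfl | rfl <;> simp [cast_iz] <;> ring
theorem ee_rp (t : ZMod 2) {i j : GolayPt} (h : i ≠ j) : ee (rp t i j) = t • Om := by
  rcases zmod2_cases t with rfl | rfl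
  · simp [rp, ee_lam]
  · simp [rp, ee_n4 (sum_pair i j), hw_pair h]
theorem ph_rp (t : ZMod 2) (i j : GolayPt) (g : CC) : ph (rp t i j) g = (g : Wd) i + (g : Wd) j := by
  rcases zmod2_cases t with rfl | rfl
  · rw [rp, if_pos rfl, ph_sub, ph_lam, ph_lam, add_comm]
  · rw [rp, if_neg (by decide), ph_n4 (sum_pair i j), ip_add_left, ip_ew_left, ip_ew_left]

/-! ### odd vectors -/

/-- the vectors `(∓3, ±1, …)` -/
noncomputable def vv (d : CC) (i : GolayPt) : LL := lam i - n2 d + if (d : Wd) i = 0 then 0 else E8 i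
theorem vv_val (d : CC) (i p : GolayPt) : (vv d i : ZV) p = (1 - 2 * iw d p) * (1 - 4 * iz {i} p) := by
  have := iw_cases d p
  by_cases k1 : p = i <;> by_cases k2 : (d : Wd) i = 0 <;> simp_all [vv, lam, coe_n2, iz, e8_apply]
theorem vv_mn (d : CC) (i : GolayPt) : Mn (vv d i) := by
  rw [Mn, sqNorm, Finset.sum_congr rfl (g := fun p => 1 + 8 * iz {i} p) fun p _ => by
    rw [vv_val]; rcases iw_cases d p with h | h <;> rcases iz_cases {i} p with k | k <;> rw [h.2, k.2] <;> rfl]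
  simp only [Finset.sum_add_distrib, ← Finset.mul_sum, sum_iz, Finset.sum_const, Finset.card_univ, card_golayPt]; rfl
theorem one_sub_iw (w : Wd) (p : GolayPt) : 1 - 2 * iv (w p = 1) = sn (w p) := by
  rcases zmod2_cases (w p) with h | h <;> simp [h]; norm_num
theorem cz_vv (d : CC) (i p : GolayPt) : cz (vv d i) p = sn ((d : Wd) p) * (1 - 4 * iv (p = i)) := by
  rw [cz, vv_val, ← one_sub_iw]; simp [cast_iw', cast_iz]
theorem ee_vv (d : CC) (i : GolayPt) : ee (vv d i) = d + (PP d + (d : Wd) i) • Om := by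
  rw [vv, map_add, ee_sub, ee_lam, ee_n2, zero_add, add_smul, add_assoc]
  rcases zmod2_cases ((d : Wd) i) with h | h <;> simp [h, ee_E8]
theorem ph_vv (d : CC) (i : GolayPt) (g : CC) : ph (vv d i) g = th d g + (g : Wd) i := by
  rw [vv, map_add, AddMonoidHom.add_apply, ph_sub, ph_lam, th, add_comm ((g : Wd) i)]
  split_ifs <;> simp [ph_E8]
theorem vv_add_Om (d : CC) (i : GolayPt) : vv (d + Om) i = -vv d i := Subtype.ext <| funext fun p => by
  have := iw_cases d p
  have := iw_cases (d + Om : CC) p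
  rw [AddSubgroup.coe_neg, Pi.neg_apply, vv_val, vv_val]
  rcases zmod2_cases ((d : Wd) p) with h | h <;> simp_all [z2]

/-! ### even subsets of an octad -/

/-- even subsets -/
def Ev (o : CC) (a : Wd) : Prop := a * o = a ∧ ∑ p, a p = 0
theorem Ev.add {o : CC} {a b : Wd} (ha : Ev o a) (hb : Ev o b) : Ev o (a + b) :=
  ⟨by rw [add_mul, ha.1, hb.1], by rw [sum_wd_add, ha.2, hb.2, add_zero]⟩
theorem ev_zero (o : CC) : Ev o 0 := ⟨zero_mul _, by simp⟩
theorem ev_self (o : CC) : Ev o o := ⟨wd_mul_self _, sum_code o⟩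
theorem ev_mul (o d : CC) : Ev o ((d : Wd) * o) := ⟨by rw [mul_assoc, wd_mul_self], ip_code d o⟩
theorem ev_pair {o : CC} {i j : GolayPt} (hi : (o : Wd) i = 1) (hj : (o : Wd) j = 1) : Ev o (ew i + ew j) :=
  ⟨funext fun p => by by_cases k1 : p = i <;> by_cases k2 : p = j <;> simp_all [ew_apply], sum_pair i j⟩
theorem Ev.ip_self {o : CC} {a : Wd} (ha : Ev o a) : ip a o = 0 := by
  change ∑ p, (a * o) p = 0
  rw [ha.1]; exact ha.2
theorem Ev.ip_mul {o : CC} {a : Wd} (ha : Ev o a) (b : Wd) : ip (b * o) a = ip b a := by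
  rw [Gr.ip_mul, mul_comm, ha.1]
/-- equal to the empty set or the whole octad -/
def Eo (o : CC) (a : Wd) : Prop := a = 0 ∨ a = o
theorem Eo.hw {o : CC} {a : Wd} (h : Eo o a) : hw a = 0 := by
  rcases h with rfl | rfl
  exacts [hw_code 0, hw_code o]
theorem Eo.ip {o : CC} {a b : Wd} (h : Eo o a) (hb : Ev o b) : ip a b = 0 := by
  rcases h with rfl | rfl
  exacts [ip_zero_left _, (ip_comm _ _).trans hb.ip_self]
theorem Eo.ip_code {o : CC} {a : Wd} (h : Eo o a) (d : CC) : Gr.ip a d = 0 := by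
  rcases h with rfl | rfl
  exacts [ip_zero_left _, Gr.ip_code _ _]
theorem Eo.ev {o : CC} {a : Wd} (h : Eo o a) : Ev o a := by
  rcases h with rfl | rfl
  exacts [ev_zero o, ev_self o]
theorem Ev.mem_iff {o : CC} (ho : wt o = 8) {a : Wd} (ha : a * o = a) : a ∈ golayCode ↔ Eo o a := by
  refine ⟨fun h => ?_, by rintro (rfl | rfl); exacts [zero_mem _, o.2]⟩
  have h1 := wt_add a o
  have h2 := wt_cases ⟨a, h⟩
  rw [ha] at h1
  dsimp only at h2
  by_cases h0 : wt a = 0
  · exact Or.inl (eq_zero_of_wt h0)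
  · exact Or.inr (wd_add_eq_zero.1 (eq_zero_of_wt (by omega)))
theorem Ev.near {o : CC} (ho : wt o = 8) {a : Wd} (ha : Ev o a) {i j : GolayPt} (h : i ≠ j) :
    a + (ew i + ew j) ∈ golayCode ↔ ((o : Wd) i = 1 ∧ (o : Wd) j = 1) ∧ Eo o (a + (ew i + ew j)) := by
  refine ⟨fun k => ?_, fun k => (Ev.mem_iff ho (ha.add (ev_pair k.1.1 k.1.2)).1).2 k.2⟩
  have h1 := ip_code ⟨_, k⟩ o
  simp only [ip_add_left, ha.ip_self, ip_ew_left, zero_add] at h1
  rcases zmod2_cases ((o : Wd) i) with hi | hi <;> rcases zmod2_cases ((o : Wd) j) with hj | hj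
  · have h2 : (ew i + ew j) * o = 0 := funext fun p => by
      by_cases k1 : p = i <;> by_cases k2 : p = j <;> simp_all [ew_apply]
    have h3 := wt_add a (ew i + ew j)
    have h4 := wt_add (a + (ew i + ew j)) o
    have h5 := wt_cases ⟨_, k⟩
    have h6 := wt_cases (⟨_, k⟩ + o)
    have h7 := wt_add a o
    rw [← ha.1, mul_assoc, mul_comm (o : Wd), h2, mul_zero, wt_zero, ha.1, wt_pair h] at h3
    rw [add_mul, h2, add_zero, ha.1] at h4
    rw [ha.1] at h7
    dsimp only [Submodule.coe_add] at h5 h6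
    omega
  · simp [hi, hj] at h1
  · simp [hi, hj] at h1
  · exact ⟨⟨hi, hj⟩, (Ev.mem_iff ho (ha.add (ev_pair hi hj)).1).1 k⟩

/-- the vectors `(±2^8, 0^16)` -/
noncomputable def ro (o : CC) (a : Wd) : LL := n2 o - n4 a
theorem ro_val {o : CC} {a : Wd} (ha : Ev o a) (p : GolayPt) : (ro o a : ZV) p = 2 * iw o p * (1 - 2 * iw a p) := by
  have := iw_mul a o p
  rw [ha.1] at this
  simp only [ro, AddSubgroup.coe_sub, Pi.sub_apply, coe_n2, coe_n4 ha.2, Pi.smul_apply, smul_eq_mul]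
  linear_combination (-4) * this
theorem ro_mn {o : CC} (ho : wt o = 8) {a : Wd} (ha : Ev o a) : Mn (ro o a) := by
  rw [Mn, sqNorm, Finset.sum_congr rfl (g := fun p => 4 * iw o p) fun p _ => by
    rw [ro_val ha]; rcases iw_cases o p with h | h <;> rcases iw_cases a p with k | k <;> rw [h.2, k.2] <;> rfl]
  rw [← Finset.mul_sum, sum_iw, ho]; rfl
theorem cz_ro {o : CC} {a : Wd} (ha : Ev o a) (p : GolayPt) : cz (ro o a) p = 2 * iv ((o : Wd) p = 1) * sn (a p) := by
  rw [cz, ro_val ha, ← one_sub_iw]; simp [cast_iw']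
theorem PP_oct {o : CC} (ho : wt o = 8) : PP o = 0 := by rw [PP, ho]; rfl
theorem ee_ro {o : CC} (ho : wt o = 8) {a : Wd} (ha : Ev o a) : ee (ro o a) = o + hw a • Om := by
  rw [ro, ee_sub, ee_n2, ee_n4 ha.2, PP_oct ho, zero_smul, add_zero]
theorem ph_ro {o : CC} {a : Wd} (ha : Ev o a) (g : CC) : ph (ro o a) g = th o g + ip a g := by
  rw [ro, ph_sub, ph_n4 ha.2, th]
theorem ro_add_self {o : CC} {a : Wd} (ha : Ev o a) : ro o (a + o) = -ro o a := Subtype.ext <| funext fun p => by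
  have h1 := iw_cases o p
  have h2 := iw_cases a p
  have h3 := iw_cases (a + o) p
  rw [AddSubgroup.coe_neg, Pi.neg_apply, ro_val ha, ro_val (ha.add (ev_self o))]
  rcases h1 with h1 | h1 <;> rcases h2 with h2 | h2 <;> simp_all [z2]

open Classical in
/-- the even subsets as a finite set -/
noncomputable def Evs (o : CC) : Finset Wd := Finset.univ.filter (Ev o)
theorem mem_Evs {o : CC} {a : Wd} : a ∈ Evs o ↔ Ev o a := by simp [Evs]
theorem sum_Evs_wt {o : CC} (ho : wt o = 8) (f : ℕ → FF) : ∑ a ∈ Evs o, f (wt a) =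
    ∑ k ∈ Finset.range 9, Nat.choose 8 k • if k % 2 = 0 then f k else 0 := by
  have := Finset.sum_powerset_apply_card (fun k => if k % 2 = 0 then f k else 0) (x := support₂ (o : Wd))
  rw [show (support₂ (o : Wd)).card = 8 from ho] at this
  rw [← this, ← Finset.sum_filter]
  refine Finset.sum_nbij' support₂ ind (fun a ha => ?_) (fun s hs => ?_) (fun a _ => ind_support a)
    (fun s _ => support_ind s) fun a _ => rfl
  · have ha := mem_Evs.1 ha
    have := even_wt ha.2
    rw [Finset.mem_filter, Finset.mem_powerset, ← ha.1, support_mul]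
    exact ⟨Finset.inter_subset_right, by rw [← support_mul, ha.1]; exact Nat.mod_eq_zero_of_dvd this⟩
  · rw [Finset.mem_filter, Finset.mem_powerset] at hs
    refine mem_Evs.2 ⟨funext fun p => ?_, by rw [sum_ind, ZMod.natCast_eq_zero_iff]; omega⟩
    by_cases hp : p ∈ s
    · simp [ind, hp, mem_support.1 (hs.1 hp)]
    · simp [ind, hp]
theorem sum_Evs_shift {o : CC} {b : Wd} (hb : Ev o b) (f : Wd → FF) : ∑ a ∈ Evs o, f (a + b) = ∑ a ∈ Evs o, f a :=
  Finset.sum_nbij' (· + b) (· + b) (fun _ h => mem_Evs.2 ((mem_Evs.1 h).add hb))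
    (fun _ h => mem_Evs.2 ((mem_Evs.1 h).add hb)) (fun a _ => by rw [add_assoc, wd_add_self, add_zero])
    (fun a _ => by rw [add_assoc, wd_add_self, add_zero]) fun _ _ => rfl
theorem sum_char {o : CC} (ho : wt o = 8) {b : Wd} (hb : b * o = b) :
    ∑ a ∈ Evs o, sn (ip b a) = 128 * iv (Eo o b) := by
  by_cases h : Eo o b
  · rw [iv_pos h, Finset.sum_congr rfl (g := fun _ => 1) fun a ha => by rw [h.ip (mem_Evs.1 ha)]; rfl]
    exact (sum_Evs_wt ho fun _ => 1).trans (by decide +kernel)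
  · rw [Eo, not_or] at h
    obtain ⟨p, hp⟩ := Function.ne_iff.1 h.1
    obtain ⟨q, hq⟩ := Function.ne_iff.1 h.2
    have h1 := congrFun hb p
    have h2 := congrFun hb q
    rw [Pi.mul_apply] at h1 h2
    have k : (o : Wd) p = 1 ∧ (o : Wd) q = 1 ∧ b p + b q = 1 := by
      revert h1 h2 hp hq; rw [Pi.zero_apply]; generalize b p = x, b q = y, (o : Wd) p = z, (o : Wd) q = w
      revert x y z w; decide
    have := sum_Evs_shift (ev_pair k.1 k.2.1) fun a => sn (ip b a)
    simp only [ip_add_right, ip_ew_right, k.2.2, sn_add, sn_one, mul_neg, mul_one, Finset.sum_neg_distrib] at this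
    have h2 : (2 : FF) * ∑ a ∈ Evs o, sn (ip b a) = 0 := by linear_combination -this
    rw [(mul_eq_zero.1 h2).resolve_left (ff_ne 2), iv_neg (P := Eo o b) (not_or.2 h), mul_zero]
theorem gauss0 {o : CC} (ho : wt o = 8) : ∑ a ∈ Evs o, sn (hw a) = 16 := by
  have h1 := sum_Evs_wt ho fun k => sn (k / 2 : ℕ)
  simp only [hw]; rw [h1]; decide +kernel
theorem gauss {o : CC} (ho : wt o = 8) {b : Wd} (hb : Ev o b) :
    ∑ a ∈ Evs o, sn (hw a + ip b a) = 16 * sn (hw b) := by
  rw [← gauss0 ho, ← sum_Evs_shift hb fun a => sn (hw a), Finset.sum_mul]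
  refine Finset.sum_congr rfl fun a ha => ?_
  rw [hw_add (mem_Evs.1 ha).2 hb.2, ← sn_add, ip_comm, add_right_comm (hw a), add_assoc (hw a + _), z2, add_zero]
theorem oct_ne_zero {o : CC} (ho : wt o = 8) : (o : Wd) ≠ 0 := fun h => by rw [h, wt_zero] at ho; omega
theorem sum_Eo {M : Type*} [AddCommGroup M] [Module FF M] {o : CC} (ho : wt o = 8) {b : Wd} (hb : Ev o b) (f : Wd → M) :
    ∑ a ∈ Evs o, iv (Eo o (b + a)) • f a = f b + f (b + o) := by
  classical
  rw [← Finset.sum_subset (s₁ := {b, b + o}) (by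
    intro a ha
    rcases Finset.mem_insert.1 ha with rfl | ha
    · exact mem_Evs.2 hb
    · rw [Finset.mem_singleton.1 ha]; exact mem_Evs.2 (hb.add (ev_self o))) fun a _ h => by
      rw [iv_neg, zero_smul]
      rintro (k | k)
      · exact h (by simp [wd_add_eq_zero.1 k])
      · exact h (by rw [← k, ← add_assoc, wd_add_self, zero_add]; simp),
    Finset.sum_pair (by simpa using oct_ne_zero ho), iv_pos (P := Eo o _) (Or.inl (wd_add_self b)),
    iv_pos (P := Eo o _) (Or.inr (by rw [← add_assoc, wd_add_self, zero_add])), one_smul, one_smul]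
/-- the double Hadamard transform of a monomial kernel -/
theorem hada2 {o : CC} (ho : wt o = 8) {a b x y : Wd} (ha : Ev o a) (hb : Ev o b) (hx : Ev o x) (hy : Ev o y) :
    ∑ u ∈ Evs o, ∑ v ∈ Evs o, sn (ip x u) * (sn (ip y v) * (sn (ip a u) * iv (Eo o (u + v + b)))) =
      256 * (sn (ip y b) * iv (Eo o (x + y + a))) := by
  rw [Finset.sum_congr rfl (g := fun u => 2 * sn (ip y b) * sn (ip (x + y + a) u)) fun u hu => by
    have := sum_Eo ho ((mem_Evs.1 hu).add hb) fun v => sn (ip y v)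
    simp only [ip_add_right, hy.ip_self, add_zero, smul_eq_mul, sn_add] at this
    simp only [ip_add_left, sn_add, add_right_comm u _ b]
    rw [← Finset.mul_sum, Finset.sum_congr rfl (g := fun v => sn (ip a u) * (iv (Eo o (u + b + v)) * sn (ip y v)))
      fun v _ => by ring, ← Finset.mul_sum, this]
    ring, ← Finset.mul_sum, sum_char ho ((hx.add hy).add ha).1]
  ring

/-- the Hadamard transform -/
noncomputable def HT (o : CC) (a : Wd) : MI := ∑ u ∈ Evs o, (sn ((o : Wd) (pt 0)) * sn (ip a u)) • NN (ro o u)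
theorem HT_mem {o : CC} (ho : wt o = 8) (a : Wd) : HT o a ∈ B0 :=
  sum_mem fun _ hu => B0.smul_mem _ (NN_mem (ro_mn ho (mem_Evs.1 hu)))
theorem hada_hada {M : Type*} [AddCommGroup M] [Module FF M] {o : CC} (ho : wt o = 8) {a : Wd} (ha : Ev o a)
    (t : ZMod 2) (f : Wd → M) : ∑ u ∈ Evs o, (sn t * sn (ip a u)) • ∑ v ∈ Evs o, (sn t * sn (ip u v)) • f v =
      (128 : FF) • (f a + f (a + o)) := by
  simp only [Finset.smul_sum, smul_smul]
  rw [Finset.sum_comm, Finset.sum_congr rfl (g := fun v => (128 : FF) • (iv (Eo o (a + v)) • f v)) fun v hv => by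
    rw [← Finset.sum_smul, smul_smul, ← sum_char ho (ha.add (mem_Evs.1 hv)).1]
    refine congrArg (· • f v) (Finset.sum_congr rfl fun u _ => ?_)
    rw [ip_add_left, sn_add, ip_comm u]
    linear_combination sn (ip a u) * sn (ip v u) * sn_mul_self t,
    ← Finset.smul_sum, sum_Eo ho ha]
theorem HT_HT {o : CC} (ho : wt o = 8) {a : Wd} (ha : Ev o a) :
    ∑ u ∈ Evs o, (sn ((o : Wd) (pt 0)) * sn (ip a u)) • HT o u = (256 : FF) • NN (ro o a) := by
  refine (hada_hada ho ha _ fun v => NN (ro o v)).trans ?_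
  rw [ro_add_self ha, NN_neg, ← two_smul FF, smul_smul]; rfl

/-! ### all minimal vectors -/

theorem mn_shape {r : LL} (h : Mn r) : (∃ d i, r = vv d i) ∨ (∃ o a, wt (o : CC) = 8 ∧ Ev o a ∧ r = ro o a) ∨
    ∃ t i j, i ≠ j ∧ (r = rp t i j ∨ r = -rp t i j) := by
  rcases mv_shape r.2 h with ⟨c, hc, p, e⟩ | ⟨s, k, ⟨rfl, hs, h8⟩ | ⟨rfl, hs⟩, h1, h2⟩
  · refine Or.inl ⟨⟨ind c, mem_CW.1 hc⟩, p, Subtype.ext (funext fun q => ?_)⟩
    rw [vv_val, e]
    by_cases k1 : q = p <;> by_cases k2 : q ∈ c <;> simp_all [iw, iz]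
  · set a := s.filter fun p => (r : ZV) p = -2 with ha
    have k : ∀ q, (r : ZV) q = 2 * iz s q - 4 * iz a q := fun q => by
      by_cases k1 : q ∈ s
      · rcases h1 q k1 with k2 | k2 <;> simp [iz, ha, k1, k2]
      · simp [iz, ha, k1, h2 q k1]
    have ev : Ev ⟨ind s, mem_CW.1 hs.1⟩ (ind a) := ⟨funext fun q => by
      by_cases k1 : q ∈ s <;> simp [ind, ha, k1], by
      simp only [k, Finset.sum_sub_distrib, ← Finset.mul_sum, sum_iz, hs.2] at h8
      rw [sum_ind, ZMod.natCast_eq_zero_iff]; omega⟩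
    refine Or.inr (Or.inl ⟨_, _, by simpa [wt] using hs.2, ev, Subtype.ext (funext fun q => ?_)⟩)
    simp [ro, coe_n2, coe_n4 ev.2, k, iw]
  · obtain ⟨i, j, hij, rfl⟩ := Finset.card_eq_two.1 hs
    have k : ∀ t (ε : ℤ), (r : ZV) i = 4 * ε → (r : ZV) j = (if t = 0 then -4 else 4) * ε →
        (r : ZV) = ε • (rp t i j : ZV) := fun t ε e1 e2 => funext fun q => by
      rw [Pi.smul_apply, rp_val t hij]
      by_cases k1 : q = i <;> by_cases k2 : q = j <;> simp_all [iz, mul_comm]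
    refine Or.inr (Or.inr ?_)
    rcases h1 i (by simp) with e1 | e1 <;> rcases h1 j (by simp) with e2 | e2
    · exact ⟨1, i, j, hij, Or.inl (Subtype.ext (by simpa using k 1 1 e1 e2))⟩
    · exact ⟨0, i, j, hij, Or.inl (Subtype.ext (by simpa using k 0 1 e1 e2))⟩
    · exact ⟨0, i, j, hij, Or.inr (Subtype.ext (by simpa using k 0 (-1) (by rw [e1]; rfl) (by rw [e2]; rfl)))⟩
    · exact ⟨1, i, j, hij, Or.inr (Subtype.ext (by simpa using k 1 (-1) (by rw [e1]; rfl) (by rw [e2]; rfl)))⟩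

end CA.Gr
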