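import Cfsg.Agent.Lib.Gr.Tri1

/-!
The values of the trilinear form on the basis vectors, compared with those on their images under triality.
-/

set_option autoImplicit false

namespace CA.Gr
open Cfsg CA.Gol CA.Co Matrix
open scoped Kronecker

def aM (A : MG) : AA := (A, 0, 0)
def aF (f : MI) : AA := (0, f, 0)
def aU (u : II → FF) : AA := (0, 0, u)
theorem ga_MMM (A B C : MG) : ga (aM A) (aM B) (aM C) = gA A B C := by simp [ga, aM]
theorem ga_MMF (A B : MG) (f : MI) : ga (aM A) (aM B) (aF f) = 0 := by simp [ga, aM, aF]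
theorem ga_MFM (A B : MG) (f : MI) : ga (aM A) (aF f) (aM B) = 0 := by simp [ga, aM, aF]
theorem ga_FMM (A B : MG) (f : MI) : ga (aF f) (aM A) (aM B) = 0 := by simp [ga, aM, aF]
theorem ga_MFF (A : MG) (f g : MI) : ga (aM A) (aF f) (aF g) = gH A f g := by simp [ga, aM, aF]
theorem ga_FMF (A : MG) (f g : MI) : ga (aF f) (aM A) (aF g) = gH A g f := by simp [ga, aM, aF]
theorem ga_FFM (A : MG) (f g : MI) : ga (aF f) (aF g) (aM A) = gH A f g := by simp [ga, aM, aF]
theorem ga_FFF (f g h : MI) : ga (aF f) (aF g) (aF h) = gF f g h := by simp [ga, aF]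
theorem ga_MUU (A : MG) (u v : II → FF) : ga (aM A) (aU u) (aU v) = u ⬝ᵥ Lo A *ᵥ v := by
  simp only [ga, aM, aU, gA_zero₂, gH_zero₂, gF_zero₁, gU_zero₁, add_zero, zero_add]; rw [gU, add_zero]
theorem ga_FUU (f : MI) (u v : II → FF) : ga (aF f) (aU u) (aU v) = u ⬝ᵥ f *ᵥ v := by
  simp only [ga, aF, aU, gA_zero₂, gH_zero₁, gF_zero₂, gU_zero₁, add_zero, zero_add]; rw [gU, Lo_zero, zero_add]
theorem aF_add (f g : MI) : aF (f + g) = aF f + aF g := by simp [aF]
theorem aF_smul (c : FF) (f : MI) : aF (c • f) = c • aF f := by simp [aF]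
theorem aU_smul (c : FF) (f : II → FF) : aU (c • f) = c • aU f := by simp [aU]
theorem aF_sum {ι : Type*} (s : Finset ι) (f : ι → MI) : aF (∑ i ∈ s, f i) = ∑ i ∈ s, aF (f i) :=
  map_sum (AddMonoidHom.mk' aF aF_add) f s
theorem aM_mem {A : MG} (h : Aᵀ = A) : aM A ∈ BB := ⟨h, zero_mem _⟩
theorem aF_mem {f : MI} (h : f ∈ B0) : aF f ∈ BB := ⟨rfl, h⟩
theorem aU_mem (u : II → FF) : aU u ∈ BB := ⟨rfl, zero_mem _⟩

/-- the basis vectors of the two halves of the part of dimension 98304 -/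
noncomputable def uu (t : ZMod 2) (d : CC) (i : GolayPt) : II → FF :=
  Pi.single (i, d) 1 + sn t • Pi.single (i, d + Om) 1
theorem uu_add_Om (t : ZMod 2) (d : CC) (i : GolayPt) : uu t (d + Om) i = sn t • uu t d i := by
  rw [uu, uu, add_assoc, cc2, add_zero, smul_add, smul_smul, sn_mul_self, one_smul, add_comm]
theorem sgl {n : Type*} [Fintype n] [DecidableEq n] (M : Matrix n n FF) (x y : n) :
    Pi.single x 1 ⬝ᵥ M *ᵥ Pi.single y 1 = M x y := by simp
theorem xm_val {r : LL} {d e : CC} {x : ZMod 2} (h : ee r = d + e + x • Om) : xm r d e = iv (x = 0) * sn (ph r e) := by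
  rw [xm, h, show e + (d + e + x • Om) = d + x • Om by linear_combination (norm := module) cc2 e]
  simp only [left_eq_add, smul_Om_eq_zero]
  split_ifs with k <;> simp [k]
theorem uu_kron (B : MG) {r : LL} {d e : CC} {x t t' : ZMod 2} (h1 : ee r = d + e + x • Om) (h2 : ph r Om = t + t')
    (i j : GolayPt) : uu t d i ⬝ᵥ (B ⊗ₖ xm r) *ᵥ uu t' e j = 2 * B i j * sn (ph r e + t * x) := by
  simp only [uu, add_dotProduct, mulVec_add, dotProduct_add, mulVec_smul, smul_dotProduct, dotProduct_smul, sgl,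
    kroneckerMap_apply, smul_eq_mul]
  rw [xm_val h1, xm_val (x := x + 1) (h1.trans (by linear_combination (norm := module) -cc2 Om)),
    xm_val (x := x + 1) (h1.trans (by linear_combination (norm := module) -cc2 Om)),
    xm_val (x := x) (h1.trans (by linear_combination (norm := module) -cc2 Om)), map_add, h2]
  rcases zmod2_cases x with rfl | rfl <;> rcases zmod2_cases t with rfl | rfl <;>
    rcases zmod2_cases t' with rfl | rfl <;> simp [sn_add, z2] <;> ring
theorem uu_kron_ne (B : MG) {r : LL} {d e : CC} (h : ∀ x : ZMod 2, ee r ≠ d + e + x • Om) (t t' : ZMod 2)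
    (i j : GolayPt) : uu t d i ⬝ᵥ (B ⊗ₖ xm r) *ᵥ uu t' e j = 0 := by
  simp only [uu, add_dotProduct, mulVec_add, dotProduct_add, mulVec_smul, smul_dotProduct, dotProduct_smul, sgl,
    kroneckerMap_apply, smul_eq_mul, xm]
  rw [if_neg fun k => h 0 (by linear_combination (norm := module) -k - cc2 e),
    if_neg fun k => h 1 (by linear_combination (norm := module) -k - cc2 e),
    if_neg fun k => h 1 (by linear_combination (norm := module) -k - cc2 e - cc2 Om),
    if_neg fun k => h 0 (by linear_combination (norm := module) -k - cc2 e)]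
  simp
theorem uu_Lo (A : MG) (t : ZMod 2) (d : CC) (i j : GolayPt) :
    uu t d i ⬝ᵥ Lo A *ᵥ uu t d j = 64 * A i j + 8 * A.trace * iv (i = j) := by
  rw [Lo, ← xm_zero, uu_kron _ (x := 0) (by simp [cc2]) (by simp [z2])]
  by_cases h : i = j <;> simp [h] <;> ring
theorem MM_apply (r : LL) (i j : GolayPt) : MM r i j = 4 * iv (i = j) - cz r i * cz r j := by
  simp [MM, Rk, one_apply, vecMulVec_apply, iv_eq_ite]
theorem SS_apply (a b i j : GolayPt) : SS a b i j = iv (i = a) * iv (j = b) + iv (i = b) * iv (j = a) := by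
  simp only [SS, Matrix.add_apply, single_apply, ← iv_and, ← iv_eq_ite, eq_comm]
theorem single_iv (a i j : GolayPt) : (single a a 1 : MG) i j = iv (i = a) * iv (j = a) := by
  simp only [single_apply, ← iv_and, ← iv_eq_ite, eq_comm]
theorem trace_SS {a b : GolayPt} (h : a ≠ b) : (SS a b).trace = 0 := by
  simp [SS, trace_single_eq_of_ne, h, h.symm]
theorem qf_single (a b : GolayPt) (r : LL) : qf (single a b 1) r = cz r a * cz r b := by
  rw [qf, single_mulVec, dotProduct_comm, one_mul]; exact (single_dotProduct _ _ _).trans (mul_comm _ _)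
theorem qf_SS (a b : GolayPt) (r : LL) : qf (SS a b) r = 2 * (cz r a * cz r b) := by
  rw [qf, SS, add_mulVec, dotProduct_add, ← qf, ← qf, qf_single, qf_single]; ring
theorem iv_pair {a b : GolayPt} (h : a ≠ b) (i j : GolayPt) : iv (ew a + ew b = ew i + ew j) = SS a b i j := by
  rw [iv_congr (pair_eq h), SS_apply]
  by_cases k1 : i = a <;> by_cases k2 : j = b <;> by_cases k3 : i = b <;> by_cases k4 : j = a <;> simp_all
theorem quad_mem {a b i j : GolayPt} : ew a + ew b + (ew i + ew j) ∈ golayCode ↔ ew a + ew b = ew i + ew j :=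
  ⟨fun h => wd_add_eq_zero.1 (eq_zero_of_small h (by
    have := wt_le_add (ew a + ew b) (ew i + ew j); have := wt_pair_le a b; have := wt_pair_le i j; omega)),
    fun h => by rw [h, wd_add_self]; exact zero_mem _⟩

/-! ### values involving the vectors of shape `(4, 4)` -/

theorem cg_XX (d : CC) (i j : GolayPt) : Cg (vv d i + vv d j : LL) 0 ↔ i = j := by
  rw [cg_crit (t := (d : Wd) i + (d : Wd) j) (w := ew i + ew j)
    (by rw [map_add, ee_vv, ee_vv]; linear_combination (norm := module) cc2 d + cc2 (PP d • Om)) fun g => by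
      simp only [map_add, AddMonoidHom.add_apply, ph_vv, ip_add_left, ip_ew_left]; linear_combination z2 (th d g),
    pair_mem]
  exact ⟨fun h => h.2, fun h => ⟨by rw [h, z2], h⟩⟩
theorem gH_XX (A : MG) (d : CC) (i j : GolayPt) : gH A (NN (vv d i)) (NN (vv d j)) = 8 * qf A (vv d i) * iv (i = j) := by
  rw [gH_eq _ (vv_mn d i) (vv_mn d j), cg_XX]
theorem ph_rp' (t : ZMod 2) (i j : GolayPt) (g : CC) (x : ZMod 2) :
    ph (rp t i j) (g + x • Om) = (g : Wd) i + (g : Wd) j := by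
  simp only [ph_rp, Submodule.coe_add, Submodule.coe_smul, Om_val, Pi.add_apply, Pi.smul_apply, Pi.one_apply]
  linear_combination z2 (x • 1)
theorem gF_rXX (t : ZMod 2) {a b : GolayPt} (h : a ≠ b) (d : CC) (i j : GolayPt) :
    gF (NN (rp t a b)) (NN (vv d i)) (NN (vv d j)) =
      64 * sn ((d : Wd) a + (d : Wd) b) * (iv (t + ((d : Wd) i + (d : Wd) j) = 0) * SS a b i j) := by
  rw [gF_eq (rp_mn t h) (vv_mn d i) (vv_mn d j), ee_vv, ph_rp', cg_crit (t := t + ((d : Wd) i + (d : Wd) j))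
    (w := ew a + ew b + (ew i + ew j))
    (by rw [map_add, map_add, ee_vv, ee_vv, ee_rp t h]; linear_combination (norm := module) cc2 d + cc2 (PP d • Om))
    fun g => by
      simp only [map_add, AddMonoidHom.add_apply, ph_vv, ph_rp, ip_add_left, ip_ew_left]
      linear_combination z2 (th d g), quad_mem, iv_and, iv_pair h]
theorem uu_rp (s t : ZMod 2) {a b : GolayPt} (h : a ≠ b) (d : CC) (i j : GolayPt) :
    uu t d i ⬝ᵥ NN (rp s a b) *ᵥ uu t d j = 2 * (4 * iv (i = j) - 16 * (iv (i = a) - sn s * iv (i = b)) *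
      (iv (j = a) - sn s * iv (j = b))) * sn ((d : Wd) a + (d : Wd) b + t * s) := by
  rw [NN, uu_kron _ (x := s) (by rw [ee_rp s h, cc2, zero_add]) (by simp [ph_rp, z2]), ph_rp, MM_apply, cz_rp s h,
    cz_rp s h]
  ring

/-- the basis vectors of the part of dimension `24 + 3 * 276` -/
noncomputable def sE (α η : ZMod 2) (i j : GolayPt) : AA :=
  if η = 0 then aM (if α = 0 then single i i 1 else SS i j) else aF (NN (rp 1 i j) + sn α • NN (rp 0 i j))
theorem sE00 (i j : GolayPt) : sE 0 0 i j = aM (single i i 1) := rfl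
theorem sE10 (i j : GolayPt) : sE 1 0 i j = aM (SS i j) := rfl
theorem sE1 (α : ZMod 2) (i j : GolayPt) : sE α 1 i j = aF (NN (rp 1 i j)) + sn α • aF (NN (rp 0 i j)) := by
  rw [sE, if_neg (by decide), aF_add, aF_smul]
theorem sE_mem (α η : ZMod 2) {i j : GolayPt} (h : i ≠ j) : sE α η i j ∈ BB := by
  unfold sE; split_ifs
  exacts [aM_mem (transpose_single _ _ _), aM_mem (SS_symm i j),
    aF_mem (add_mem (NN_mem (rp_mn 1 h)) (B0.smul_mem _ (NN_mem (rp_mn 0 h))))]

theorem ga_sXX (α : ZMod 2) {a b : GolayPt} (h : a ≠ b) (d : CC) (i j : GolayPt) :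
    ga (sE α 1 a b) (aF (NN (vv d i))) (aF (NN (vv d j))) =
      64 * sn ((d : Wd) a + (d : Wd) b) * sn (α * (1 + ((d : Wd) i + (d : Wd) j))) * SS a b i j := by
  simp only [sE1, ga_add, ga_smul, ga_FFF, gF_rXX _ h]
  generalize (d : Wd) i + (d : Wd) j = x
  rcases zmod2_cases α with rfl | rfl <;> rcases zmod2_cases x with rfl | rfl <;> simp [z2]
theorem sXX (α η : ZMod 2) {a b : GolayPt} (h : a ≠ b) (d : CC) (i j : GolayPt) :
    sn ((d : Wd) i + (d : Wd) j) * ga (sE η α a b) (aU (uu 0 d i)) (aU (uu 0 d j)) =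
      ga (sE α η a b) (aF (NN (vv d i))) (aF (NN (vv d j))) := by
  have h1 := sn_mul_self ((d : Wd) a)
  have h2 := sn_mul_self ((d : Wd) b)
  have h3 := sn_mul_self ((d : Wd) i)
  rcases zmod2_cases α with rfl | rfl <;> rcases zmod2_cases η with rfl | rfl <;> (try rw [ga_sXX _ h]) <;>
    simp only [sE00, sE10, sE1, ga_add, ga_smul, ga_MUU, ga_FUU, ga_MFF, uu_Lo, uu_rp _ _ h, gH_XX,
      qf_single, qf_SS, cz_vv, SS_apply, single_iv, trace_SS h, trace_single_eq_same, sn_add, zero_mul, one_mul,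
      sn_zero, sn_one, iv_eq_ite] <;> grind
theorem sZZ (α η : ZMod 2) {a b : GolayPt} (h : a ≠ b) (d : CC) (i j : GolayPt) :
    sn ((d : Wd) i + (d : Wd) j) * ga (sE η α a b) (aF (NN (vv d i))) (aF (NN (vv d j))) =
      ga (sE α η a b) (aU (uu 0 d i)) (aU (uu 0 d j)) := by
  rw [← sXX η α h, ← mul_assoc, sn_mul_self, one_mul]
theorem sYY (α η : ZMod 2) {a b : GolayPt} (h : a ≠ b) (d : CC) (i j : GolayPt) :
    sn ((d : Wd) i + (d : Wd) j) * ga (sE η α a b) (aU (uu 1 d i)) (aU (uu 1 d j)) =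
      ga (sE α η a b) (aU (uu 1 d i)) (aU (uu 1 d j)) := by
  have h1 := sn_mul_self ((d : Wd) a)
  have h2 := sn_mul_self ((d : Wd) b)
  have h3 := sn_mul_self ((d : Wd) i)
  rcases zmod2_cases α with rfl | rfl <;> rcases zmod2_cases η with rfl | rfl <;>
    simp only [sE00, sE10, sE1, ga_add, ga_smul, ga_MUU, ga_FUU, uu_Lo, uu_rp _ _ h,
      SS_apply, single_iv, trace_SS h, trace_single_eq_same, sn_add, mul_zero, mul_one,
      sn_zero, sn_one, iv_eq_ite] <;> grind

/-! ### values involving the octad vectors -/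

theorem ga_HT (o : CC) (a : Wd) (x y : AA) : ga (aF (HT o a)) x y =
    ∑ u ∈ Evs o, sn ((o : Wd) (pt 0)) * sn (ip a u) * ga (aF (NN (ro o u))) x y := by
  simp only [HT, aF_sum, ga_sum, aF_smul, ga_smul]
theorem uu_ro (t : ZMod 2) {o : CC} (ho : wt o = 8) {a : Wd} (ha : Ev o a) (d : CC) (i j : GolayPt) :
    uu t d i ⬝ᵥ NN (ro o a) *ᵥ uu t (d + o) j = 8 * (iv (i = j) - iv ((o : Wd) i = 1 ∧ (o : Wd) j = 1) *
      sn (ip (ew i + ew j) a)) * sn (th o d + (t * hw a + ip ((d : Wd) * o) a)) := by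
  rw [NN, uu_kron _ (x := hw a) (by rw [ee_ro ho ha]; linear_combination (norm := module) -cc2 d)
    (by rw [ph_ro ha, th_Om, Om_val, ip_one, ha.2]; exact (z2 _).trans (z2 _).symm), ph_ro ha, MM_apply, cz_ro ha,
    cz_ro ha, th_add_right, th_self, PP_oct ho, Submodule.coe_add, ip_add_right, ha.ip_self, ha.ip_mul, ip_comm a,
    iv_and]
  simp only [ip_add_left, ip_ew_left, sn_add, add_zero]; ring
theorem uu_HT (t : ZMod 2) {o : CC} (ho : wt o = 8) (a : Wd) (d : CC) (i j : GolayPt) :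
    ga (aF (HT o a)) (aU (uu t d i)) (aU (uu t (d + o) j)) = 8 * sn ((o : Wd) (pt 0) + th o d) *
      (iv (i = j) * ∑ u ∈ Evs o, sn (t * hw u + ip (a + d * o) u) - iv ((o : Wd) i = 1 ∧ (o : Wd) j = 1) *
        ∑ u ∈ Evs o, sn (t * hw u + ip (a + d * o + (ew i + ew j)) u)) := by
  rw [ga_HT, Finset.mul_sum, Finset.mul_sum, ← Finset.sum_sub_distrib, Finset.mul_sum]
  refine Finset.sum_congr rfl fun u hu => ?_
  rw [ga_FUU, uu_ro t ho (mem_Evs.1 hu), ip_add_left (_ + _), ip_add_left a]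
  simp only [sn_add]; ring
theorem cg_rXX {o : CC} (ho : wt o = 8) {a : Wd} (ha : Ev o a) (d : CC) (i j : GolayPt) :
    Cg (ro o a + vv d i + vv (d + o) j : LL) 0 ↔ hw a + hw ((d : Wd) * o) + ((d : Wd) i + (d : Wd) j + (o : Wd) j) = 0 ∧
      a + d * o + (ew i + ew j) ∈ golayCode :=
  cg_crit (by
    rw [map_add, map_add, ee_vv, ee_vv, ee_ro ho ha, PP_add, PP_oct ho, Submodule.coe_add, Pi.add_apply]
    linear_combination (norm := module) cc2 d + cc2 o + cc2 (PP d • Om)) fun g => by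
      simp only [map_add, AddMonoidHom.add_apply, ph_vv, ph_ro ha, ip_add_left, ip_ew_left, th_add_left]
      linear_combination z2 (th d g) + z2 (th o g)
theorem hw_mul {o : CC} {a : Wd} (ha : Ev o a) (d : CC) : hw (a + d * o) = hw a + hw ((d : Wd) * o) + ip a d := by
  rw [hw_add ha.2 (ev_mul o d).2, ip_comm, ha.ip_mul, ip_comm]
theorem Eo.ip_of {o : CC} {a b : Wd} {d : CC} (h : Eo o (a + d * o + b)) : Gr.ip a d = Gr.ip b d := by
  have := h.ip_code d
  rw [ip_add_left, ip_add_left, mul_comm, Gr.ip_mul, wd_mul_self, Gr.ip_code] at this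
  linear_combination this - z2 (Gr.ip b d)
theorem ip_self (w : Wd) : ip w w = ∑ p, w p := Finset.sum_congr rfl fun p _ => congrFun (wd_mul_self w) p
theorem Eo.hw_pair {o : CC} {b : Wd} (hb : Ev o b) {i j : GolayPt} (h : i ≠ j) (hi : (o : Wd) i = 1) (hj : (o : Wd) j = 1)
    (k : Eo o (b + (ew i + ew j))) : Gr.hw b = 1 := by
  have h1 := k.hw
  have h2 := k.ip (ev_pair hi hj)
  rw [hw_add hb.2 (sum_pair i j), Gr.hw_pair h] at h1
  rw [ip_add_left, ip_self, sum_pair] at h2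
  linear_combination h1 - h2 - z2 1
theorem tXX {o : CC} (ho : wt o = 8) {a : Wd} (ha : Ev o a) (d : CC) (i j : GolayPt) :
    sn ((d : Wd) i + (d : Wd) j + (o : Wd) j + (o : Wd) (pt 0)) * ga (aF (HT o a)) (aU (uu 0 d i)) (aU (uu 0 (d + o) j)) =
      16 * ga (aF (NN (ro o a))) (aF (NN (vv d i))) (aF (NN (vv (d + o) j))) := by
  have hb := ha.add (ev_mul o d)
  have h0 := sn_mul_self ((o : Wd) (pt 0))
  rw [uu_HT 0 ho, ga_FFF, gF_eq (ro_mn ho ha) (vv_mn _ _) (vv_mn _ _), cg_rXX ho ha, ee_vv, ph_ro ha, th_add_right,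
    th_smul_Om, Submodule.coe_add, ip_add_right, Submodule.coe_smul, ip_smul_right, Om_val, ip_one, ha.2]
  simp only [zero_mul, zero_add, mul_zero, add_zero, sum_char ho hb.1]
  obtain rfl | h := eq_or_ne i j
  · rw [wd_add_self, add_zero, sum_char ho hb.1, Ev.mem_iff ho hb.1, z2, zero_add]
    by_cases k : Eo o (a + d * o)
    · have h1 := k.hw
      have h2 := Eo.ip_of (b := 0) (by rwa [add_zero])
      rw [hw_mul ha, h2, ip_zero_left, add_zero] at h1
      rw [h1, h2]
      rcases zmod2_cases ((o : Wd) i) with h3 | h3 <;> simp [h3, k, sn_add] <;> grind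
    · simp [k]
  · rw [ha.add (ev_mul o d) |>.near ho h]
    by_cases k1 : (o : Wd) i = 1 ∧ (o : Wd) j = 1
    · rw [sum_char ho (hb.add (ev_pair k1.1 k1.2)).1]
      by_cases k : Eo o (a + d * o + (ew i + ew j))
      · have h1 := Eo.hw_pair hb h k1.1 k1.2 k
        have h2 := k.ip_of
        rw [ip_add_left, ip_ew_left, ip_ew_left] at h2
        rw [hw_mul ha, h2] at h1
        rw [h2, k1.2, ← add_assoc (hw a + _), h1]
        simp [h, k, k1, z2, sn_add]; grind
      · simp [h, k]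
    · simp [h, k1]

theorem tZZ {o : CC} (ho : wt o = 8) {a : Wd} (ha : Ev o a) (d : CC) (i j : GolayPt) :
    sn ((d : Wd) i + (d : Wd) j + (o : Wd) j + (o : Wd) (pt 0)) *
      ga (aF (HT o a)) (aF (NN (vv d i))) (aF (NN (vv (d + o) j))) =
      16 * ga (aF (NN (ro o a))) (aU (uu 0 d i)) (aU (uu 0 (d + o) j)) := by
  have h := congrArg (fun f => ga (aF f) (aU (uu 0 d i)) (aU (uu 0 (d + o) j))) (HT_HT ho ha)
  simp only [aF_sum, ga_sum, aF_smul, ga_smul] at h
  rw [← mul_right_inj' (ff_ne 16), ← mul_assoc 16 16, show (16 * 16 : FF) = 256 by norm_num, ← h, ga_HT, Finset.mul_sum,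
    Finset.mul_sum]
  refine Finset.sum_congr rfl fun u hu => ?_
  have := tXX ho (mem_Evs.1 hu) d i j
  have := sn_mul_self ((d : Wd) i + (d : Wd) j + (o : Wd) j + (o : Wd) (pt 0))
  grind
theorem tYY {o : CC} (ho : wt o = 8) {a : Wd} (ha : Ev o a) (d : CC) (i j : GolayPt) :
    sn (hw ((d : Wd) * o) + (d : Wd) i + (d : Wd) j + (o : Wd) j + (o : Wd) (pt 0)) *
      ga (aF (HT o a)) (aU (uu 1 d i)) (aU (uu 1 (d + o) j)) =
      16 * ga (aF (NN (ro o a))) (aU (uu 1 d i)) (aU (uu 1 (d + o) j)) := by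
  have hb := ha.add (ev_mul o d)
  have h0 := sn_mul_self ((o : Wd) (pt 0))
  have h1 := sn_mul_self (hw ((d : Wd) * o))
  rw [uu_HT 1 ho, ga_FUU, uu_ro 1 ho ha]
  simp only [one_mul, gauss ho hb, hw_mul ha, ha.ip_mul, ip_comm d]
  by_cases k : (o : Wd) i = 1 ∧ (o : Wd) j = 1
  · obtain rfl | h := eq_or_ne i j
    · rw [wd_add_self, add_zero, gauss ho hb, hw_mul ha]; simp [k]
    · have h2 := sn_mul_self ((d : Wd) i)
      have h3 := sn_mul_self ((d : Wd) j)
      rw [gauss ho (hb.add (ev_pair k.1 k.2)), hw_add hb.2 (sum_pair i j), hw_pair h, hw_mul ha]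
      simp [k, h, ip_add_left, ip_add_right, sn_add]; grind
  · obtain rfl | h := eq_or_ne i j
    · have h2 : (o : Wd) i = 0 := (zmod2_cases _).resolve_right fun h => k ⟨h, h⟩
      have h3 := sn_mul_self ((d : Wd) i)
      simp [h2, sn_add]; grind
    · simp [h, k]
theorem xyz (d e : CC) (i j k : GolayPt) :
    sn ((d : Wd) i + (PP e + (e : Wd) j) + ((d : Wd) k + (e : Wd) k)) *
      ga (aU (uu 0 d i)) (aU (uu 1 e j)) (aF (NN (vv (d + e) k))) =
      ga (aF (NN (vv d i))) (aU (uu 1 e j)) (aU (uu 0 (d + e) k)) := by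
  rw [← ga_cyc (aF _), ga_FUU, ga_FUU, NN, NN, uu_kron _ (ee_vv _ _) (by simp [ph_vv]),
    uu_kron _ (x := PP d + (d : Wd) i) (by rw [ee_vv]; linear_combination (norm := module) -cc2 e) (by simp [ph_vv]),
    ph_vv, ph_vv, th_add_left, th_add_right, th_self, th_self, ip_mul, wd_mul_self, ip_code]
  have h1 := sn_mul_self ((d : Wd) i)
  have h2 := sn_mul_self ((e : Wd) j)
  have h3 := sn_mul_self ((e : Wd) k)
  have h4 := sn_mul_self (PP e)
  have h5 := sn_mul_self (PP d)
  have h6 := sn_mul_self ((d : Wd) k)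
  simp only [MM_apply, cz_vv, Submodule.coe_add, Pi.add_apply, sn_add, zero_mul, one_mul, sn_zero, iv_eq_ite]
  grind

theorem cg_rr {o : CC} (ho : wt o = 8) {a b : Wd} (ha : Ev o a) (hb : Ev o b) :
    Cg (ro o a + ro o b : LL) 0 ↔ Eo o (a + b) := by
  rw [cg_crit (t := hw a + hw b) (w := a + b)
    (by rw [map_add, ee_ro ho ha, ee_ro ho hb]; linear_combination (norm := module) cc2 o) fun g => by
      simp only [map_add, AddMonoidHom.add_apply, ph_ro ha, ph_ro hb, ip_add_left]; linear_combination z2 (th o g),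
    Ev.mem_iff ho (ha.add hb).1]
  refine ⟨fun h => h.2, fun h => ⟨?_, h⟩⟩
  have h1 := h.hw
  have h2 := h.ip hb
  rw [ip_add_left, ip_self b, hb.2, add_zero] at h2
  rw [hw_add ha.2 hb.2, h2, add_zero] at h1
  exact h1
theorem gF_rTT (t : ZMod 2) {i j : GolayPt} (h : i ≠ j) {o : CC} (ho : wt o = 8) {a b : Wd} (ha : Ev o a) (hb : Ev o b) :
    gF (NN (rp t i j)) (NN (ro o a)) (NN (ro o b)) = 64 * iv ((o : Wd) i = 1 ∧ (o : Wd) j = 1) *
      (iv (t + (1 + ip (ew i + ew j) a) = 0) * iv (Eo o (a + b + (ew i + ew j)))) := by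
  rw [gF_eq (rp_mn t h) (ro_mn ho ha) (ro_mn ho hb), ee_ro ho ha, ph_rp', cg_crit (t := t + (hw a + hw b))
    (w := a + b + (ew i + ew j))
    (by rw [map_add, map_add, ee_ro ho ha, ee_ro ho hb, ee_rp t h]; linear_combination (norm := module) cc2 o)
    fun g => by
      simp only [map_add, AddMonoidHom.add_apply, ph_ro ha, ph_ro hb, ph_rp, ip_add_left, ip_ew_left]
      linear_combination z2 (th o g), (ha.add hb).near ho h]
  by_cases k1 : (o : Wd) i = 1 ∧ (o : Wd) j = 1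
  · by_cases k : Eo o (a + b + (ew i + ew j))
    · have h1 := Eo.hw_pair (ha.add hb) h k1.1 k1.2 k
      have h2 := k.ip ha
      rw [ip_add_left, ip_add_left, ip_self, ha.2, zero_add, ip_comm] at h2
      rw [hw_add ha.2 hb.2] at h1
      rw [show hw a + hw b = 1 + ip (ew i + ew j) a by linear_combination h1 - h2]
      simp [k1, k, z2]
    · simp [k]
  · simp [k1]
/-- a structure constant -/
noncomputable def cS (o : CC) (α η : ZMod 2) (i j : GolayPt) : FF :=
  if α = 0 ∧ η = 0 then 32 * iv ((o : Wd) i = 1) else 64 * iv ((o : Wd) i = 1 ∧ (o : Wd) j = 1)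
theorem ga_sTT (α η : ZMod 2) {i j : GolayPt} (h : i ≠ j) {o : CC} (ho : wt o = 8) {a b : Wd} (ha : Ev o a) (hb : Ev o b) :
    ga (sE α η i j) (aF (NN (ro o a))) (aF (NN (ro o b))) =
      cS o α η i j * (sn (ip (α • (ew i + ew j)) a) * iv (Eo o (a + b + η • (ew i + ew j)))) := by
  have h1 := sn_mul_self (a i)
  rcases zmod2_cases α with rfl | rfl <;> rcases zmod2_cases η with rfl | rfl <;>
    simp only [sE00, sE10, sE1, ga_add, ga_smul, ga_MFF, ga_FFF, gF_rTT _ h ho ha hb, gH_eq _ (ro_mn ho ha) (ro_mn ho hb),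
      cg_rr ho ha hb, qf_single, qf_SS, cz_ro ha, cS, zero_smul, one_smul, add_zero, ip_zero_left, iv_and]
  · rcases zmod2_cases ((o : Wd) i) with k | k <;> simp [k]; grind
  · rcases zmod2_cases (ip (ew i + ew j) a) with k | k <;> simp [k, z2]
  · simp [ip_add_left, sn_add]; ring
  · rcases zmod2_cases (ip (ew i + ew j) a) with k | k <;> simp [k, z2]
theorem sTT (α η : ZMod 2) {i j : GolayPt} (h : i ≠ j) {o : CC} (ho : wt o = 8) {x y : Wd} (hx : Ev o x) (hy : Ev o y) :
    ga (sE η α i j) (aF (HT o x)) (aF (HT o y)) = 256 * ga (sE α η i j) (aF (NN (ro o x))) (aF (NN (ro o y))) := by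
  have h0 := sn_mul_self ((o : Wd) (pt 0))
  have e : cS o η α i j = cS o α η i j := by simp only [cS, and_comm]
  simp only [HT, aF_sum, aF_smul, ga_sum₂, ga_smul₂, ga_sum₃, ga_smul₃, Finset.mul_sum]
  rw [Finset.sum_comm, Finset.sum_congr rfl (g := fun u => cS o α η i j * ∑ v ∈ Evs o, sn (ip x u) * (sn (ip y v) *
    (sn (ip (η • (ew i + ew j)) u) * iv (Eo o (u + v + α • (ew i + ew j)))))) fun u hu => by
      rw [Finset.mul_sum]
      refine Finset.sum_congr rfl fun v hv => ?_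
      rw [ga_sTT _ _ h ho (mem_Evs.1 hu) (mem_Evs.1 hv), e]; grind, ← Finset.mul_sum, ga_sTT _ _ h ho hx hy]
  by_cases k : Ev o (α • (ew i + ew j)) ∧ Ev o (η • (ew i + ew j))
  · rw [hada2 ho k.2 k.1 hx hy, mul_iv (b := sn (ip (α • (ew i + ew j)) x)) fun l => by
      have := l.ip k.1
      rw [ip_add_left, ip_add_left, ip_smul_right α (η • (ew i + ew j)), ip_comm (η • (ew i + ew j)), ip_smul_right η,
        ip_self (ew i + ew j), sum_pair, mul_zero,
        mul_zero, add_zero, add_eq_zero_iff_eq_neg, ZMod.neg_eq_self_mod_two] at this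
      rw [← this, ip_comm]]
    ring
  · have : cS o α η i j = 0 := by
      rw [cS, if_neg fun l => k (by simp [l, ev_zero]), iv_neg fun l => k ?_, mul_zero]
      have := ev_pair l.1 l.2
      rcases zmod2_cases α with rfl | rfl <;> rcases zmod2_cases η with rfl | rfl <;> simp [this, ev_zero, -smul_add]
    simp [this]

/-! ### the part of dimension `24 + 3 * 276` -/

theorem trace_single3 (a b c d e f : GolayPt) :
    (single a b 1 * single c d 1 * single e f 1 : MG).trace = iv (b = c) * iv (d = e) * iv (f = a) := by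
  by_cases h1 : b = c
  · by_cases h2 : d = e
    · by_cases h3 : f = a
      · simp [h1, h2, h3]
      · simp [h1, h2, h3, trace_single_eq_of_ne _ _ _ (Ne.symm h3)]
    · simp [h1, h2]
  · simp [h1]
theorem tri_iff {i j k l m n : GolayPt} (h1 : i ≠ j) (h2 : k ≠ l) (h3 : m ≠ n) :
    ew i + ew j + (ew k + ew l) + (ew m + ew n) = 0 ↔ (j = k ∧ l = m ∧ n = i) ∨ (j = k ∧ l = n ∧ m = i) ∨
      (j = l ∧ k = m ∧ n = i) ∨ (j = l ∧ k = n ∧ m = i) ∨ (i = k ∧ l = m ∧ n = j) ∨ (i = k ∧ l = n ∧ m = j) ∨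
      (i = l ∧ k = m ∧ n = j) ∨ (i = l ∧ k = n ∧ m = j) := by
  refine ⟨fun h => ?_, fun h => ?_⟩
  · have e1 := congrFun h i
    have e2 := congrFun h j
    have e3 := congrFun h k
    have e4 := congrFun h l
    have e5 := congrFun h m
    have : (1 : ZMod 2) ≠ 0 := one_ne_zero
    have : (1 + 1 + 1 : ZMod 2) ≠ 0 := by decide
    simp only [Pi.add_apply, ew_apply, Pi.zero_apply] at e1 e2 e3 e4 e5
    grind (splits := 30)
  · rcases h with ⟨rfl, rfl, rfl⟩ | ⟨rfl, rfl, rfl⟩ | ⟨rfl, rfl, rfl⟩ | ⟨rfl, rfl, rfl⟩ | ⟨rfl, rfl, rfl⟩ |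
      ⟨rfl, rfl, rfl⟩ | ⟨rfl, rfl, rfl⟩ | ⟨rfl, rfl, rfl⟩ <;>
    exact funext fun p => by
      simp only [Pi.add_apply, Pi.zero_apply]; generalize ew _ p = x, ew _ p = y, ew _ p = z; revert x y z; decide
theorem gA_SSS {i j k l m n : GolayPt} (h1 : i ≠ j) (h2 : k ≠ l) (h3 : m ≠ n) : gA (SS i j) (SS k l) (SS m n) =
    256 * iv (ew i + ew j + (ew k + ew l) + (ew m + ew n) = 0) := by
  rw [gA, trace_swap (SS_symm i j) (SS_symm m n) (SS_symm k l), tri_iff h1 h2 h3]
  simp only [SS, add_mul, mul_add, trace_add, trace_single3, iv_eq_ite]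
  grind (splits := 30)
theorem gA_DSS (i : GolayPt) {k l m n : GolayPt} (h2 : k ≠ l) (h3 : m ≠ n) : gA (single i i 1) (SS k l) (SS m n) =
    256 * (iv (i = k) + iv (i = l)) * iv (ew k + ew l = ew m + ew n) := by
  rw [gA, iv_pair h2, SS_apply]
  simp only [SS, add_mul, mul_add, trace_add, trace_single3, iv_eq_ite]
  grind
theorem gA_DDS (i k : GolayPt) {m n : GolayPt} (h3 : m ≠ n) : gA (single i i 1) (single k k 1) (SS m n) = 0 := by
  simp only [gA, SS, add_mul, mul_add, trace_add, trace_single3, iv_eq_ite]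
  grind
theorem gH_rr (A : MG) (s t : ZMod 2) {k l m n : GolayPt} (h2 : k ≠ l) (h3 : m ≠ n) :
    gH A (NN (rp s k l)) (NN (rp t m n)) = 8 * qf A (rp s k l) * (iv (s + t = 0) * iv (ew k + ew l = ew m + ew n)) := by
  rw [gH_eq _ (rp_mn s h2) (rp_mn t h3), cg_crit (t := s + t) (w := ew k + ew l + (ew m + ew n))
    (by rw [map_add, ee_rp s h2, ee_rp t h3, add_smul]) fun g => by
      simp only [map_add, AddMonoidHom.add_apply, ph_rp, ip_add_left, ip_ew_left], quad_mem, iv_and]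
theorem gF_rrr (s t u : ZMod 2) {i j k l m n : GolayPt} (h1 : i ≠ j) (h2 : k ≠ l) (h3 : m ≠ n) :
    gF (NN (rp s i j)) (NN (rp t k l)) (NN (rp u m n)) =
      64 * (iv (s + t + u = 0) * iv (ew i + ew j + (ew k + ew l) + (ew m + ew n) = 0)) := by
  rw [gF_eq (rp_mn s h1) (rp_mn t h2) (rp_mn u h3), cg_crit (t := s + t + u)
    (w := ew i + ew j + (ew k + ew l) + (ew m + ew n))
    (by rw [map_add, map_add, ee_rp s h1, ee_rp t h2, ee_rp u h3, add_smul, add_smul]) fun g => by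
      simp only [map_add, AddMonoidHom.add_apply, ph_rp, ip_add_left, ip_ew_left], iv_and, ee_rp t h2,
    ← zero_add (t • Om), ph_rp', iv_congr (Q := _ = 0) ⟨fun h => eq_zero_of_small h (by
      have := wt_le_add (ew i + ew j + (ew k + ew l)) (ew m + ew n); have := wt_le_add (ew i + ew j) (ew k + ew l)
      have := wt_pair_le i j; have := wt_pair_le k l; have := wt_pair_le m n; omega), fun h => h ▸ zero_mem _⟩]
  simp
theorem qf_D_rp (i : GolayPt) (s : ZMod 2) {k l : GolayPt} (h2 : k ≠ l) :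
    qf (single i i 1) (rp s k l) = 16 * (iv (i = k) + iv (i = l)) := by
  have := sn_mul_self s
  simp only [qf_single, cz_rp s h2, iv_eq_ite]; grind
theorem qf_S_rp {i j : GolayPt} (h1 : i ≠ j) (s : ZMod 2) {k l : GolayPt} (h2 : k ≠ l) :
    qf (SS i j) (rp s k l) = -32 * sn s * iv (ew i + ew j = ew k + ew l) := by
  have := sn_mul_self s
  simp only [qf_SS, cz_rp s h2, iv_pair h1, SS_apply, iv_eq_ite]; grind
theorem sss (α η β θ γ κ : ZMod 2) {i j k l m n : GolayPt} (h1 : i ≠ j) (h2 : k ≠ l) (h3 : m ≠ n) :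
    ga (sE η α i j) (sE θ β k l) (sE κ γ m n) = ga (sE α η i j) (sE β θ k l) (sE γ κ m n) := by
  have a1 := gA_cyc (SS i j) (single k k 1) (SS m n)
  have a2 := gA_cyc (single m m 1) (SS i j) (SS k l)
  have a3 := gA_cyc (SS i j) (single k k 1) (single m m 1)
  have a4 := gA_cyc (single m m 1) (single i i 1) (SS k l)
  rw [gA_DSS _ h3 h1] at a1
  rw [gA_DSS _ h1 h2] at a2
  rw [gA_DDS _ _ h1] at a3
  rw [gA_DDS _ _ h2] at a4
  have b : ∀ A B C : Wd, iv (A = B) * iv (B = C) = iv (B = C) * iv (C = A) := fun A B C => by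
    simp only [← iv_and]; exact iv_congr (by grind)
  have b1 := b (ew i + ew j) (ew k + ew l) (ew m + ew n)
  have b2 := b (ew k + ew l) (ew m + ew n) (ew i + ew j)
  clear b
  rcases zmod2_cases α with rfl | rfl <;> rcases zmod2_cases η with rfl | rfl <;>
    rcases zmod2_cases β with rfl | rfl <;> rcases zmod2_cases θ with rfl | rfl <;>
    rcases zmod2_cases γ with rfl | rfl <;> rcases zmod2_cases κ with rfl | rfl <;>
    simp only [sE00, sE10, sE1, ga_add, ga_add₂, ga_add₃, ga_smul, ga_smul₂, ga_smul₃, ga_MMM, ga_MMF, ga_MFM, ga_FMM,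
      ga_MFF, ga_FMF, ga_FFM, ga_FFF, gF_rrr _ _ _ h1 h2 h3, gH_rr _ _ _ h2 h3, gH_rr _ _ _ h3 h1, gH_rr _ _ _ h1 h2,
      gA_SSS h1 h2 h3, gA_DSS _ h2 h3, gA_DDS _ _ h3, a1, ← a2, a3, ← a4, qf_D_rp _ _ h1, qf_D_rp _ _ h2, qf_D_rp _ _ h3,
      qf_S_rp h1 _ h2, qf_S_rp h2 _ h3, qf_S_rp h3 _ h1] <;> simp [z2] <;> grind

end CA.Gr
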