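import Cfsg.Agent.Lib.Gr.Tri2

/-!
The triality automorphism of the Griess algebra.
-/

set_option autoImplicit false

namespace CA.Gr
open Cfsg CA.Gol CA.Co Matrix
open scoped Kronecker

/-! ### eigenvectors -/

/-- eigenvectors of an element of the extraspecial group -/
def Eig (h : MC) (x : ZMod 2) (a : AA) : Prop := actA 1 h a = sn x • a
theorem Eig.smul {h : MC} {x : ZMod 2} {a : AA} (e : Eig h x a) (c : FF) : Eig h x (c • a) := by
  rw [Eig, map_smul, e, smul_comm]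
theorem Eig.add {h : MC} {x : ZMod 2} {a b : AA} (e : Eig h x a) (e' : Eig h x b) : Eig h x (a + b) := by
  rw [Eig, map_add, e, e', smul_add]
theorem Eig.of_eq {h : MC} {x y : ZMod 2} {a : AA} (e : Eig h x a) (k : x = y) : Eig h y a := k ▸ e
theorem eig_HT {h : MC} {x : ZMod 2} {o : CC} (e : ∀ u, Ev o u → Eig h x (aF (NN (ro o u)))) (a : Wd) :
    Eig h x (aF (HT o a)) := by
  rw [Eig, HT, aF_sum, map_sum, Finset.smul_sum]
  exact Finset.sum_congr rfl fun u hu => by rw [aF_smul]; exact (e u (mem_Evs.1 hu)).smul _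
theorem eig_aM (h : MC) (A : MG) : Eig h 0 (aM A) := by simp [Eig, actA_apply, aM]
theorem eig_NN (w r : LL) : Eig (xm w) (dp w r) (aF (NN r)) := by
  rw [Eig, actA_apply, ← aF_smul, ← xm_NN]; simp [aF]
theorem actA_neg (a : AA) : actA 1 (-1) a = (a.1, a.2.1, -a.2.2) := by
  have : (1 : MG) ⊗ₖ (-1 : MC) = -1 := by rw [← neg_one_smul FF (1 : MC), kronecker_smul, one_kronecker_one]; simp
  simp [actA_apply, this, neg_mulVec]
theorem eig_z_F (f : MI) : Eig (-1) 0 (aF f) := by simp [Eig, actA_neg, aF]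
theorem eig_z_U (u : II → FF) : Eig (-1) 1 (aU u) := by simp [Eig, actA_neg, aU]
theorem kron_single (w : LL) (i : GolayPt) (d : CC) :
    ((1 : MG) ⊗ₖ xm w) *ᵥ Pi.single (i, d) 1 = sn (ph w d) • (Pi.single (i, d + ee w) 1 : II → FF) := by
  funext ⟨j, e⟩
  rw [mulVec_single_one, col_apply, kroneckerMap_apply, xm, Pi.smul_apply, Pi.single_apply, one_apply]
  by_cases h1 : j = i <;> by_cases h2 : e = d + ee w <;> simp [h1, h2]
theorem eig_uu {w : LL} {x : ZMod 2} (h1 : ee w = x • Om) (h2 : ph w Om = 0) (t : ZMod 2) (d : CC) (i : GolayPt) :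
    Eig (xm w) (ph w d + t * x) (aU (uu t d i)) := by
  have : ((1 : MG) ⊗ₖ xm w) *ᵥ uu t d i = sn (ph w d + t * x) • uu t d i := by
    rw [uu, mulVec_add, mulVec_smul, kron_single, kron_single, map_add, h2, add_zero, smul_comm, ← smul_add, h1,
      sn_add, mul_smul]
    congr 1
    rcases zmod2_cases x with rfl | rfl
    · simp
    · rw [one_smul, mul_one, ← uu, ← uu, uu_add_Om]
  rw [Eig, actA_apply, ← aU_smul, ← this]; simp [aU]
theorem Eig.van {h : MC} (hh : hᵀ * h = 1) {x y z : ZMod 2} {a b c : AA} (ha : Eig h x a) (hb : Eig h y b)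
    (hc : Eig h z c) (k : x + y + z ≠ 0) : ga a b c = 0 := by
  have := ga_actA (m := 1) (by simp) hh a b c
  rw [ha, hb, hc, ga_smul, ga_smul₂, ga_smul₃, ← mul_assoc, ← mul_assoc, ← sn_add, ← sn_add,
    (zmod2_cases _).resolve_left k, sn_one] at this
  have h2 : (2 : FF) * ga a b c = 0 := by linear_combination -this
  exact (mul_eq_zero.1 h2).resolve_left (ff_ne 2)
theorem dp_E8 (p : GolayPt) (r : LL) : dp (E8 p) r = ph r Om := by
  rw [dp_comm, dp_of (dot_e8 _ p), ph_Om r p]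
theorem dp_lam2 (p q : GolayPt) (r : LL) : dp (lam p + lam q) r = (ee r : Wd) p + (ee r : Wd) q := by
  rw [dp_comm, dp_add, ee_apply, ee_apply]
theorem smul_Om2 (d : CC) (t : ZMod 2) (p q : GolayPt) :
    ((d + t • Om : CC) : Wd) p + ((d + t • Om : CC) : Wd) q = (d : Wd) p + (d : Wd) q := by
  simp only [Submodule.coe_add, Submodule.coe_smul, Om_val, Pi.add_apply, Pi.smul_apply, Pi.one_apply]
  linear_combination z2 (t • 1)

/-! ### the spanning family -/

/-- the index set of the spanning family -/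
inductive KT : Type
  | S (α η : ZMod 2) (i j : GolayPt) (h : i ≠ j)
  | T (o : CC) (a : Wd) (ho : wt o = 8) (ha : Ev o a)
  | X (d : CC) (i : GolayPt)
  | Y (d : CC) (i : GolayPt)
  | Z (d : CC) (i : GolayPt)
namespace KT
/-- the family -/
noncomputable def el : KT → AA
  | S α η i j _ => sE α η i j
  | T o a _ _ => (16 : FF) • aF (NN (ro o a))
  | X d i => aF (NN (vv d i))
  | Y d i => aU (uu 1 d i)
  | Z d i => aU (uu 0 d i)
/-- its image under triality -/
noncomputable def el' : KT → AA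
  | S α η i j _ => sE η α i j
  | T o a _ _ => aF (HT o a)
  | X d i => sn ((d : Wd) i + (d : Wd) (pt 0)) • aU (uu 0 d i)
  | Y d i => sn (PP d + ((d : Wd) i + (d : Wd) (pt 0))) • aU (uu 1 d i)
  | Z d i => sn ((d : Wd) i + (d : Wd) (pt 0)) • aF (NN (vv d i))
def c1 : KT → ZMod 2
  | Y _ _ => 1
  | Z _ _ => 1
  | _ => 0
def c2 : KT → ZMod 2
  | X _ _ => 1
  | Y _ _ => 1
  | _ => 0
def gr : KT → CC
  | S .. => 0
  | T o .. => o
  | X d _ => d
  | Y d _ => d
  | Z d _ => d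
def rk : KT → ℕ
  | S .. => 0
  | T .. => 1
  | X .. => 2
  | Y .. => 3
  | Z .. => 4
theorem el_mem : ∀ k, el k ∈ BB
  | S _ _ _ _ h => sE_mem _ _ h
  | T _ _ ho ha => BB.smul_mem _ (aF_mem (NN_mem (ro_mn ho ha)))
  | X d i => aF_mem (NN_mem (vv_mn d i))
  | Y _ _ => aU_mem _
  | Z _ _ => aU_mem _
theorem el'_mem : ∀ k, el' k ∈ BB
  | S _ _ _ _ h => sE_mem _ _ h
  | T _ _ ho _ => aF_mem (HT_mem ho _)
  | X _ _ => BB.smul_mem _ (aU_mem _)
  | Y _ _ => BB.smul_mem _ (aU_mem _)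
  | Z d i => BB.smul_mem _ (aF_mem (NN_mem (vv_mn d i)))
theorem eig_sE {h : MC} {i j : GolayPt} (e : ∀ t, Eig h 0 (aF (NN (rp t i j)))) (α η : ZMod 2) : Eig h 0 (sE α η i j) := by
  rcases zmod2_cases η with rfl | rfl
  · exact eig_aM _ _
  · rw [sE1]; exact (e 1).add ((e 0).smul _)
theorem eig_z : ∀ k, Eig (-1) (c1 k) (el k) ∧ Eig (-1) (c2 k) (el' k)
  | S .. => ⟨eig_sE (fun _ => eig_z_F _) _ _, eig_sE (fun _ => eig_z_F _) _ _⟩
  | T .. => ⟨(eig_z_F _).smul _, eig_z_F _⟩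
  | X .. => ⟨eig_z_F _, (eig_z_U _).smul _⟩
  | Y .. => ⟨eig_z_U _, (eig_z_U _).smul _⟩
  | Z .. => ⟨eig_z_U _, (eig_z_F _).smul _⟩
theorem eig_e8 (k : KT) : Eig (xm (E8 (pt 0))) (c2 k) (el k) ∧ Eig (xm (E8 (pt 0))) (c1 k) (el' k) := by
  have h1 : ∀ t i j, Eig (xm (E8 (pt 0))) 0 (aF (NN (rp t i j))) := fun t i j =>
    (eig_NN _ _).of_eq (by rw [dp_E8, ph_rp]; exact z2 1)
  have h2 : ∀ (o : CC) u, Ev o u → Eig (xm (E8 (pt 0))) 0 (aF (NN (ro o u))) := fun o u hu =>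
    (eig_NN _ _).of_eq (by rw [dp_E8, ph_ro hu, th_Om, Om_val, ip_one, hu.2, add_zero])
  have h3 : ∀ d i, Eig (xm (E8 (pt 0))) 1 (aF (NN (vv d i))) := fun d i =>
    (eig_NN _ _).of_eq (by rw [dp_E8, ph_vv, th_Om]; rfl)
  have h4 : ∀ t d i, Eig (xm (E8 (pt 0))) t (aU (uu t d i)) := fun t d i =>
    (eig_uu (x := 1) (by rw [ee_E8, one_smul]) (ph_E8 _ _) t d i).of_eq (by rw [ph_E8, zero_add, mul_one])
  cases k
  exacts [⟨eig_sE (h1 · _ _) _ _, eig_sE (h1 · _ _) _ _⟩, ⟨(h2 _ _ ‹_›).smul _, eig_HT (h2 _) _⟩,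
    ⟨h3 _ _, (h4 0 _ _).smul _⟩, ⟨h4 1 _ _, (h4 1 _ _).smul _⟩, ⟨h4 0 _ _, (h3 _ _).smul _⟩]
theorem eig_lam (p q : GolayPt) (k : KT) : Eig (xm (lam p + lam q)) ((gr k : Wd) p + (gr k : Wd) q) (el k) ∧
    Eig (xm (lam p + lam q)) ((gr k : Wd) p + (gr k : Wd) q) (el' k) := by
  have h1 : ∀ t i j, i ≠ j → Eig (xm (lam p + lam q)) 0 (aF (NN (rp t i j))) := fun t i j h =>
    (eig_NN _ _).of_eq (by rw [dp_lam2, ee_rp t h]; exact z2 (t • 1))
  have h2 : ∀ (o : CC), wt o = 8 → ∀ u, Ev o u → Eig (xm (lam p + lam q)) ((o : Wd) p + (o : Wd) q) (aF (NN (ro o u))) :=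
    fun o ho u hu => (eig_NN _ _).of_eq (by rw [dp_lam2, ee_ro ho hu, smul_Om2])
  have h3 : ∀ (d : CC) i, Eig (xm (lam p + lam q)) ((d : Wd) p + (d : Wd) q) (aF (NN (vv d i))) := fun d i =>
    (eig_NN _ _).of_eq (by rw [dp_lam2, ee_vv, smul_Om2])
  have h4 : ∀ t (d : CC) i, Eig (xm (lam p + lam q)) ((d : Wd) p + (d : Wd) q) (aU (uu t d i)) := fun t d i =>
    (eig_uu (x := 0) (by simp [ee_lam]) (by simp [ph_lam, z2]) t d i).of_eq (by simp [ph_lam])
  cases k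
  exacts [⟨eig_sE (h1 · _ _ ‹_›) _ _, eig_sE (h1 · _ _ ‹_›) _ _⟩, ⟨(h2 _ ‹_› _ ‹_›).smul _, eig_HT (h2 _ ‹_›) _⟩,
    ⟨h3 _ _, (h4 0 _ _).smul _⟩, ⟨h4 1 _ _, (h4 1 _ _).smul _⟩, ⟨h4 0 _ _, (h3 _ _).smul _⟩]

/-- the triple product is preserved -/
def R (a b c : KT) : Prop := ga (el' a) (el' b) (el' c) = ga (el a) (el b) (el c)
theorem R.cyc {a b c : KT} (h : R a b c) : R b c a := by rwa [R, ← ga_cyc, ← ga_cyc (el a)]
theorem R.swap {a b c : KT} (h : R a b c) : R a c b := by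
  rwa [R, ga_swap (el'_mem a) (el'_mem c) (el'_mem b), ga_swap (el_mem a) (el_mem c) (el_mem b)]
theorem R_of {a b c : KT} (h : c1 a + c1 b + c1 c = 0 → c2 a + c2 b + c2 c = 0 →
    ∀ t : ZMod 2, gr c = gr a + gr b + t • Om → R a b c) : R a b c := by
  have o1 : (-1 : MC)ᵀ * (-1) = 1 := by simp
  have o2 : ∀ w, (xm w)ᵀ * xm w = 1 := fun w => orth_comm (xm_orth w)
  by_cases k1 : c1 a + c1 b + c1 c = 0
  · by_cases k2 : c2 a + c2 b + c2 c = 0
    · by_cases k3 : ∀ q, (gr a : Wd) (pt 0) + (gr a : Wd) q + ((gr b : Wd) (pt 0) + (gr b : Wd) q) +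
          ((gr c : Wd) (pt 0) + (gr c : Wd) q) = 0
      · refine h k1 k2 ((gr a : Wd) (pt 0) + (gr b : Wd) (pt 0) + (gr c : Wd) (pt 0)) (Subtype.ext (funext fun q => ?_))
        simp only [Submodule.coe_add, Submodule.coe_smul, Om_val, Pi.add_apply, Pi.smul_apply, Pi.one_apply,
          smul_eq_mul, mul_one]
        linear_combination -k3 q + z2 ((gr c : Wd) q)
      · obtain ⟨q, k3⟩ := not_forall.1 k3
        rw [R, Eig.van (o2 _) (eig_lam _ q a).1 (eig_lam _ q b).1 (eig_lam _ q c).1 k3,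
          Eig.van (o2 _) (eig_lam _ q a).2 (eig_lam _ q b).2 (eig_lam _ q c).2 k3]
    · rw [R, Eig.van (o2 _) (eig_e8 a).1 (eig_e8 b).1 (eig_e8 c).1 k2, Eig.van o1 (eig_z a).2 (eig_z b).2 (eig_z c).2 k2]
  · rw [R, Eig.van (o2 _) (eig_e8 a).2 (eig_e8 b).2 (eig_e8 c).2 k1, Eig.van o1 (eig_z a).1 (eig_z b).1 (eig_z c).1 k1]
theorem R.shX {a b : KT} {d : CC} {i : GolayPt} (h : R a b (X d i)) (t : ZMod 2) : R a b (X (d + t • Om) i) := by
  rw [R, el, el', smul_Om2]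
  rcases zmod2_cases t with rfl | rfl
  · rwa [zero_smul, add_zero]
  · rwa [one_smul, vv_add_Om, NN_neg, uu_add_Om, sn_zero, one_smul]
theorem R.shZ {a b : KT} {d : CC} {i : GolayPt} (h : R a b (Z d i)) (t : ZMod 2) : R a b (Z (d + t • Om) i) := by
  rw [R, el, el', smul_Om2]
  rcases zmod2_cases t with rfl | rfl
  · rwa [zero_smul, add_zero]
  · rwa [one_smul, vv_add_Om, NN_neg, uu_add_Om, sn_zero, one_smul]
theorem R.shY {a b : KT} {d : CC} {i : GolayPt} (h : R a b (Y d i)) (t : ZMod 2) : R a b (Y (d + t • Om) i) := by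
  rw [R, el, el', smul_Om2]
  rcases zmod2_cases t with rfl | rfl
  · rwa [zero_smul, add_zero]
  · rw [one_smul, PP_add_Om, uu_add_Om, aU_smul, smul_comm, ga_smul₃, ga_smul₃ (sn 1)]
    exact congrArg _ h
theorem R_TYY {o : CC} {a : Wd} (ho : wt o = 8) (ha : Ev o a) (d e : CC) (i j : GolayPt) :
    R (T o a ho ha) (Y d i) (Y e j) := R_of fun _ _ t h => by
  obtain rfl : e = d + o + t • Om := h.trans (by rw [gr, gr, add_comm o])
  refine R.shY ?_ t
  simp only [R, el, el', PP_add]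
  simp only [ga_smul, ga_smul₂, ga_smul₃, ← tYY ho ha, PP_oct ho, Submodule.coe_add, Pi.add_apply, sn_add, sn_zero]
  have h1 := sn_mul_self (PP d)
  have h2 := sn_mul_self ((d : Wd) (pt 0))
  grind

end KT

/-! ### three octad vectors -/

theorem tri_gen {n : Type*} [Fintype n] [DecidableEq n] {W f g h : Matrix n n FF} (hW : W * W = 1)
    (cf : W * f = f * W) (cg : W * g = g * W) (ch : W * h = h * W) (t : (f * g * h * W).trace = 0) :
    ((1 - W) * f * (1 - W) * ((1 - W) * g * (1 - W)) * ((1 - W) * h * (1 - W))).trace = 32 * (f * g * h).trace := by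
  have k : ∀ f, W * f = f * W → ∀ X, (1 - W) * (f * X) = f * ((1 - W) * X) := fun f c X => by
    rw [← Matrix.mul_assoc, ← Matrix.mul_assoc, sub_mul, mul_sub, c, Matrix.one_mul, Matrix.mul_one]
  have k2 : ∀ X, (1 - W) * ((1 - W) * X) = (2 : FF) • ((1 - W) * X) := fun X => by
    rw [← Matrix.mul_assoc, ← smul_mul_assoc]
    refine congrArg (· * X) ?_
    simp only [sub_mul, mul_sub, Matrix.one_mul, Matrix.mul_one, hW]
    module
  rw [← Matrix.mul_one ((1 - W) * h * (1 - W))]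
  simp only [Matrix.mul_assoc]
  simp only [k f cf, k g cg, k h ch, k2, mul_smul_comm, trace_smul, smul_eq_mul]
  simp only [Matrix.mul_one, mul_sub, trace_sub, ← Matrix.mul_assoc, t]
  ring
theorem trace_sum3 {n ι : Type*} [Fintype n] {s t u : Finset ι} {a b c : ι → FF} {f g h : ι → Matrix n n FF}
    {W : Matrix n n FF} (H : ∀ i ∈ s, ∀ j ∈ t, ∀ k ∈ u, (f i * g j * h k * W).trace = 0) :
    ((∑ i ∈ s, a i • f i) * (∑ i ∈ t, b i • g i) * (∑ i ∈ u, c i • h i) * W).trace = 0 := by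
  simp only [Matrix.sum_mul, Matrix.mul_sum, trace_sum, Matrix.smul_mul, Matrix.mul_smul, trace_smul]
  exact Finset.sum_eq_zero fun k hk => by
    rw [Finset.sum_eq_zero fun j hj => by rw [Finset.sum_eq_zero fun i hi => by rw [H i hi j hj k hk, smul_zero],
      smul_zero], smul_zero]
theorem conj_entry {n : Type*} [Fintype n] [DecidableEq n] {P : Matrix n n FF} (hP : Pᵀ = P) (M : Matrix n n FF)
    (x y : n) : (P * M * P) x y = (P *ᵥ Pi.single x 1) ⬝ᵥ M *ᵥ (P *ᵥ Pi.single y 1) := by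
  rw [← sgl (P * M * P), ← mulVec_mulVec, ← mulVec_mulVec, dotProduct_mulVec, ← mulVec_transpose, hP]
theorem orth8 {r s t : LL} (hr : Mn r) (hs : Mn s) (ht : Mn t) {p : GolayPt} (hp : (t : ZV) p = 2 ∨ (t : ZV) p = -2)
    (h : Cg (r + s + t + E8 (pt 0) : LL) 0) : dotInt (r : ZV) s = 0 := by
  rw [add_assoc, AddSubgroup.coe_add, ← cg_iff_add (t + E8 (pt 0)).2, AddSubgroup.coe_add, AddSubgroup.coe_add] at h
  have h1 : Cg (r + s) (t + e8 p) := h.trans ((Cg.refl _).add (cg_e8 _ p))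
  have h8 : sqNorm (e8 p) = 64 := by rw [sqNorm_eq_dot, dot_e8, e8_apply, if_pos rfl]; rfl
  unfold Mn at hr hs ht
  obtain ⟨u, hu, h2, h3⟩ : ∃ u ∈ leechLattice, Cg (r + s) u ∧ sqNorm u = 64 := by
    rcases hp with hp | hp
    · exact ⟨t - e8 p, sub_mem t.2 (e8_mem p), h1.trans (cg_sub_add (e8_mem p)).symm, by
        rw [sqNorm_sub, dot_e8, hp, ht, h8]; rfl⟩
    · exact ⟨t + e8 p, add_mem t.2 (e8_mem p), h1, by rw [sqNorm_add, dot_e8, hp, ht, h8]; rfl⟩
  rcases le_total (dotInt (r : ZV) s) 0 with h0 | h0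
  · have := h2.norm_eq hu (by rw [sqNorm_add]; omega) h3.le
    rw [sqNorm_add] at this; omega
  · have := ((cg_sub_add s.2).trans h2).norm_eq hu (by rw [sqNorm_sub]; omega) h3.le
    rw [sqNorm_sub] at this; omega
theorem ro_two {o : CC} (ho : wt o = 8) {a : Wd} (ha : Ev o a) : ∃ p, (ro o a : ZV) p = 2 ∨ (ro o a : ZV) p = -2 := by
  obtain ⟨p, hp⟩ := Function.ne_iff.1 (oct_ne_zero ho)
  refine ⟨p, ?_⟩
  rw [ro_val ha, ((iw_cases o p).resolve_left fun h => hp h.1).2]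
  rcases iw_cases a p with h | h <;> simp [h.2]
/-- the matrix of the element of the extraspecial group conjugate to the central involution -/
noncomputable def WW : MI := (1 : MG) ⊗ₖ xm (E8 (pt 0))
theorem WW_symm : WWᵀ = WW := by
  rw [WW, ← kroneckerMap_transpose, transpose_one, xm_transpose, qq_of (k := 4)
    (by rw [coe_E8, sqNorm_eq_dot, dot_e8, e8_apply, if_pos rfl]; rfl)]
  exact congrArg _ (one_smul _ _)
theorem WW_sq : WW * WW = 1 := by
  have := kron_orth (m := 1) (by simp) (orth_comm (xm_orth (E8 (pt 0))))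
  rwa [← WW, WW_symm] at this
theorem WW_comm {f : MI} (h : Eig (xm (E8 (pt 0))) 0 (aF f)) : WW * f = f * WW := by
  have : WW * f * WWᵀ = f := (congrArg (·.2.1) h).trans (one_smul _ _)
  rw [WW_symm] at this
  rw [← Matrix.mul_one (WW * f), ← WW_sq, ← Matrix.mul_assoc, this]
theorem trace_rrr {o₁ o₂ o₃ : CC} (h₁ : wt o₁ = 8) (h₂ : wt o₂ = 8) (h₃ : wt o₃ = 8) {a b c : Wd} (ha : Ev o₁ a)
    (hb : Ev o₂ b) (hc : Ev o₃ c) : (NN (ro o₁ a) * NN (ro o₂ b) * NN (ro o₃ c) * WW).trace = 0 := by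
  rw [NN, NN, NN, WW, ← mul_kronecker_mul, ← mul_kronecker_mul, ← mul_kronecker_mul, trace_kronecker, Matrix.mul_one]
  simp only [xm_mul, smul_mul_assoc, trace_smul, smul_eq_mul]
  by_cases h : Cg (ro o₁ a + ro o₂ b + ro o₃ c + E8 (pt 0) : LL) 0
  · have m1 := ro_mn h₁ ha
    have m2 := ro_mn h₂ hb
    have m3 := ro_mn h₃ hc
    rw [trace_MMM, m1, m2, m3, orth8 m1 m2 m3 (ro_two h₃ hc).choose_spec h,
      orth8 m2 m3 m1 (ro_two h₁ ha).choose_spec (by rwa [add_comm _ (ro o₁ a), ← add_assoc]),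
      orth8 m1 m3 m2 (ro_two h₂ hb).choose_spec (by rwa [add_right_comm (ro o₁ a)])]
    simp
  · rw [trace_xm_of_not h]; simp
theorem Pm_single (x : II) : (1 - WW) *ᵥ Pi.single x 1 = uu 1 x.2 x.1 := by
  rw [sub_mulVec, one_mulVec, WW, uu, kron_single, ph_E8, ee_E8]; simp [sub_eq_add_neg]
/-- the signs of triality on the fixed half -/
noncomputable def Sg : MI := diagonal fun x => sn (PP x.2 + ((x.2 : Wd) x.1 + (x.2 : Wd) (pt 0)))
theorem Sg_orth : Sgᵀ * Sg = 1 := by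
  rw [Sg, diagonal_transpose, diagonal_mul_diagonal]; simp only [sn_mul_self, diagonal_one]
theorem Sg_HT {o : CC} (ho : wt o = 8) {a : Wd} (ha : Ev o a) :
    Sg * ((1 - WW) * HT o a * (1 - WW)) * Sgᵀ = (1 - WW) * ((16 : FF) • NN (ro o a)) * (1 - WW) := by
  have hP : (1 - WW)ᵀ = 1 - WW := by rw [transpose_sub, transpose_one, WW_symm]
  ext x y
  have := KT.R_TYY ho ha x.2 y.2 x.1 y.1
  simp only [KT.R, KT.el, KT.el', ga_smul₂, ga_smul₃, ← aF_smul, ga_FUU] at this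
  rw [Sg, diagonal_transpose, mul_diagonal, diagonal_mul, conj_entry hP, conj_entry hP, Pm_single, Pm_single, ← this]
  ring

namespace KT
theorem R_TTT {o₁ o₂ o₃ : CC} (h₁ : wt o₁ = 8) (h₂ : wt o₂ = 8) (h₃ : wt o₃ = 8) {a b c : Wd} (ha : Ev o₁ a)
    (hb : Ev o₂ b) (hc : Ev o₃ c) : R (T o₁ a h₁ ha) (T o₂ b h₂ hb) (T o₃ c h₃ hc) := by
  have k1 : ∀ {o a} (ho : wt (o : CC) = 8) (ha : Ev o a), WW * HT o a = HT o a * WW := fun ho ha =>
    WW_comm (eig_e8 (T _ _ ho ha)).2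
  have k2 : ∀ {o a} (ho : wt (o : CC) = 8) (ha : Ev o a),
      WW * ((16 : FF) • NN (ro o a)) = ((16 : FF) • NN (ro o a)) * WW := fun ho ha =>
    WW_comm (by rw [aF_smul]; exact (eig_e8 (T _ _ ho ha)).1)
  have e1 := tri_gen WW_sq (k1 h₁ ha) (k1 h₂ hb) (k1 h₃ hc) (trace_sum3 fun _ hi _ hj _ hk =>
    trace_rrr h₁ h₂ h₃ (mem_Evs.1 hi) (mem_Evs.1 hj) (mem_Evs.1 hk))
  have e2 := tri_gen WW_sq (k2 h₁ ha) (k2 h₂ hb) (k2 h₃ hc) (by
    simp only [Matrix.smul_mul, Matrix.mul_smul, trace_smul, trace_rrr h₁ h₂ h₃ ha hb hc, smul_zero])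
  rw [← Sg_HT h₁ ha, ← Sg_HT h₂ hb, ← Sg_HT h₃ hc, trace_conj3 Sg_orth, e1, mul_right_inj' (ff_ne 32)] at e2
  simp only [R, el, el', ← aF_smul, ga_FFF]
  rw [gF, gF, e2]
theorem oct_ne {o : CC} (ho : wt o = 8) (t : ZMod 2) : o ≠ 0 + 0 + t • Om := by
  rintro rfl
  rcases zmod2_cases t with rfl | rfl <;> simp [wt_zero, wt_one] at ho
theorem oct_eq {o o' : CC} (ho : wt o = 8) (ho' : wt o' = 8) {t : ZMod 2} (h : o' = 0 + o + t • Om) : o' = o := by
  rcases zmod2_cases t with rfl | rfl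
  · simpa using h
  · have := wt_add o 1
    rw [h, zero_add, one_smul, Submodule.coe_add, Om_val] at ho'
    rw [mul_one, wt_one] at this; omega
theorem R_sorted (a b c : KT) (h1 : rk a ≤ rk b) (h2 : rk b ≤ rk c) : R a b c := R_of fun k1 k2 t k3 => by
  cases a <;> cases b <;> simp only [rk, Nat.reduceLeDiff] at h1 <;> cases c <;>
    simp only [rk, Nat.reduceLeDiff] at h2 <;> simp only [c1, c2, gr] at k1 k2 k3 <;>
    first | exact absurd k1 (by decide) | exact absurd k2 (by decide) | skip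
  · exact sss _ _ _ _ _ _ ‹_› ‹_› ‹_›
  · exact absurd k3 (oct_ne ‹_› t)
  · obtain rfl := oct_eq ‹_› ‹_› k3
    simp only [R, el, el', ga_smul₂, ga_smul₃]
    rw [sTT _ _ ‹_› ‹_› ‹_› ‹_›]; ring
  · rename_i α η i j h d k e l
    rw [k3, zero_add]
    refine R.shX ?_ t
    have := sn_mul_self ((d : Wd) (pt 0))
    simp only [R, el, el', ga_smul₂, ga_smul₃, ← sXX α η h, sn_add]; grind
  · rename_i α η i j h d k e l
    rw [k3, zero_add]
    refine R.shY ?_ t
    have := sn_mul_self ((d : Wd) (pt 0))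
    have := sn_mul_self (PP d)
    simp only [R, el, el', ga_smul₂, ga_smul₃, sn_add]
    rw [← sYY α η h, sn_add]; grind
  · rename_i α η i j h d k e l
    rw [k3, zero_add]
    refine R.shZ ?_ t
    have := sn_mul_self ((d : Wd) (pt 0))
    simp only [R, el, el', ga_smul₂, ga_smul₃, ← sZZ α η h, sn_add]; grind
  · exact R_TTT _ _ _ _ _ _
  · rename_i o a ho ha d k e l
    rw [k3, add_comm o]
    refine R.shX ?_ t
    have := sn_mul_self ((d : Wd) (pt 0))
    simp only [R, el, el', ga_smul, ga_smul₂, ga_smul₃, ← tXX ho ha, sn_add, Submodule.coe_add, Pi.add_apply]; grind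
  · exact R_TYY _ _ _ _ _ _
  · rename_i o a ho ha d k e l
    rw [k3, add_comm o]
    refine R.shZ ?_ t
    have := sn_mul_self ((d : Wd) (pt 0))
    simp only [R, el, el', ga_smul, ga_smul₂, ga_smul₃, ← tZZ ho ha, sn_add, Submodule.coe_add, Pi.add_apply]; grind
  · rename_i d i e j f k
    rw [k3]
    refine R.shZ ?_ t
    have := sn_mul_self ((d : Wd) (pt 0))
    have := sn_mul_self ((e : Wd) (pt 0))
    simp only [R, el, el', ga_smul, ga_smul₂, ga_smul₃, ← xyz, sn_add, Submodule.coe_add, Pi.add_apply]; grind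
theorem R_all (a b c : KT) : R a b c := by
  rcases le_total (rk a) (rk b) with h1 | h1 <;> rcases le_total (rk b) (rk c) with h2 | h2 <;>
    rcases le_total (rk a) (rk c) with h3 | h3
  exacts [R_sorted a b c h1 h2, R_sorted a b c h1 h2, (R_sorted a c b h3 h2).swap, (R_sorted c a b h3 h1).cyc,
    (R_sorted b a c h1 h3).cyc.swap, (R_sorted b c a h2 h3).cyc.cyc, (R_sorted c b a h2 h1).swap.cyc,
    (R_sorted c b a h2 h1).swap.cyc]
end KT

/-! ### the automorphism -/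

theorem aM_add (f g : MG) : aM (f + g) = aM f + aM g := by simp [aM]
theorem aM_smul (c : FF) (f : MG) : aM (c • f) = c • aM f := by simp [aM]
theorem aM_sum {ι : Type*} (s : Finset ι) (f : ι → MG) : aM (∑ i ∈ s, f i) = ∑ i ∈ s, aM (f i) :=
  map_sum (AddMonoidHom.mk' aM aM_add) f s
theorem aU_add (f g : II → FF) : aU (f + g) = aU f + aU g := by simp [aU]
theorem aU_sum {ι : Type*} (s : Finset ι) (f : ι → II → FF) : aU (∑ i ∈ s, f i) = ∑ i ∈ s, aU (f i) :=
  map_sum (AddMonoidHom.mk' aU aU_add) f s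
theorem sym_sum {n : Type*} [Fintype n] [DecidableEq n] {A : Matrix n n FF} (h : Aᵀ = A) :
    (2 : FF) • A = ∑ i, ∑ j, A i j • (single i j 1 + single j i 1) := by
  simp only [smul_add, Finset.sum_add_distrib, smul_single, smul_eq_mul, mul_one]
  rw [Finset.sum_comm (f := fun i j => single j i (A i j)), two_smul, ← matrix_eq_sum_single]
  refine congrArg _ ((matrix_eq_sum_single _).trans ?_)
  exact Finset.sum_congr rfl fun i _ => Finset.sum_congr rfl fun j _ => by rw [← transpose_apply A j i, h]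
theorem span_el : Submodule.span FF (Set.range KT.el) = BB := by
  refine le_antisymm (Submodule.span_le.2 (Set.range_subset_iff.2 KT.el_mem)) fun a ha => ?_
  set p := Submodule.span FF (Set.range KT.el)
  have k : ∀ k, KT.el k ∈ p := fun k => Submodule.subset_span ⟨k, rfl⟩
  have k2 : ∀ x, (2 : FF) • x ∈ p → x ∈ p := fun x => (p.smul_mem_iff (ff_ne 2)).1
  have h1 : ∀ i j, aM (SS i j) ∈ p := fun i j => by
    obtain rfl | h := eq_or_ne i j
    · obtain ⟨j, hj⟩ := exists_ne i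
      rw [SS, aM_add]; exact add_mem (k (.S 0 0 i j hj.symm)) (k (.S 0 0 i j hj.symm))
    · exact k (.S 1 0 i j h)
  have h2 : ∀ r, Mn r → aF (NN r) ∈ p := fun r hr => by
    have e : ∀ t i j, i ≠ j → aF (NN (rp t i j)) ∈ p := fun t i j h => by
      have a0 := k (.S 0 1 i j h)
      have a1 := k (.S 1 1 i j h)
      simp only [KT.el, sE1, sn_zero, sn_one] at a0 a1
      rcases zmod2_cases t with rfl | rfl
      · exact k2 _ (by convert sub_mem a0 a1 using 1; module)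
      · exact k2 _ (by convert add_mem a0 a1 using 1; module)
    rcases mn_shape hr with ⟨d, i, rfl⟩ | ⟨o, a, ho, ha, rfl⟩ | ⟨t, i, j, h, rfl | rfl⟩
    · exact k (.X d i)
    · exact (p.smul_mem_iff (ff_ne 16)).1 (k (.T o a ho ha))
    · exact e t i j h
    · rw [NN_neg]; exact e t i j h
  rw [show a = aM a.1 + aF a.2.1 + aU a.2.2 by simp [aM, aF, aU]]
  refine add_mem (add_mem (k2 _ ?_) ?_) ?_
  · rw [← aM_smul, sym_sum ha.1]
    simp only [aM_sum, aM_smul, ← SS.eq_1]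
    exact sum_mem fun i _ => sum_mem fun j _ => p.smul_mem _ (h1 i j)
  · exact B0_ind (P := fun f => aF f ∈ p) h2 (zero_mem _) (fun f g h k => by rw [aF_add]; exact add_mem h k)
      (fun c f h => by rw [aF_smul]; exact p.smul_mem _ h) ha.2
  · rw [pi_eq_sum_univ' a.2.2, aU_sum]
    refine sum_mem fun x _ => ?_
    rw [aU_smul]
    refine p.smul_mem _ (k2 _ ?_)
    convert add_mem (k (.Z x.2 x.1)) (k (.Y x.2 x.1)) using 1
    simp only [KT.el, uu, aU_add, aU_smul, sn_zero, sn_one]; module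

/-- the central involution is conjugate to a non-central involution of the extraspecial group -/
theorem triality : ∃ s : GG, s * zG * s⁻¹ = xG (E8 (pt 0)) := by
  have h1 := (Submodule.span_range_subtype_eq_top_iff BB KT.el_mem).2 span_el
  obtain ⟨s, hs⟩ := exists_GG_of_family (fun k => ⟨_, KT.el_mem k⟩) (fun k => ⟨_, KT.el'_mem k⟩) h1 (by
    choose j hj using fun i : GolayPt => exists_ne i
    have e : Id = ∑ i, sE 0 0 i (j i) := by
      simp only [sE00, ← aM_sum]; exact congrArg aM (sum_single_one).symm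
    rw [show ((⟨Id, Id_mem⟩, ⟨Id, Id_mem⟩) : BB × BB) = ∑ i, (⟨_, KT.el_mem (.S 0 0 i (j i) (hj i).symm)⟩,
      ⟨_, KT.el'_mem (.S 0 0 i (j i) (hj i).symm)⟩) from Prod.ext
        (Subtype.ext (by rw [Prod.fst_sum, Submodule.coe_sum]; exact e))
        (Subtype.ext (by rw [Prod.snd_sum, Submodule.coe_sum]; exact e))]
    exact sum_mem fun i _ => Submodule.subset_span ⟨_, rfl⟩) KT.R_all
  refine ⟨s, mul_inv_eq_iff_eq_mul.2 (Subtype.ext (LinearEquiv.toLinearMap_injective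
    (LinearMap.ext_on_range h1 fun k => ?_)))⟩
  have e : zG.1 ⟨_, KT.el_mem k⟩ = sn (KT.c1 k) • ⟨_, KT.el_mem k⟩ :=
    Subtype.ext ((zG_apply _).trans ((actA_neg _).symm.trans (KT.eig_z k).1))
  refine (congrArg s.1 e).trans ((map_smul _ _ _).trans ?_)
  rw [hs]
  exact Subtype.ext (((congrArg (fun x => ((xG (E8 (pt 0))).1 x : AA)) (hs k)).trans
    ((xG_apply _ _).trans (KT.eig_e8 k).2)).symm)

end CA.Gr
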